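import Cfsg.Agent.Lib.Golay.Basic

/-!
The Leech lattice: membership, norms, generators.
-/

set_option autoImplicit false

namespace Cfsg.Agent.Leech

open Cfsg Cfsg.Agent.PG Cfsg.Agent.Golay
open scoped Pointwise symmDiff

attribute [-simp] Fintype.sum_option

/-- integer vectors -/
abbrev V : Type := GolayPt → ℤ
/-- the lattice -/
abbrev L : Type := ↥leechLattice

theorem Cw.induction {P : Finset GolayPt → Prop} (h0 : P ∅)
    (hx : ∀ s t, Cw s → Cw t → P s → P t → P (s ∆ t))
    (h : ∀ j < 12, P (ofMask (enc (2 ^ j)))) {s : Finset GolayPt} (hs : Cw s) : P s := by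
  obtain ⟨m, hm, rfl⟩ := hs.exists_enc
  have : ∀ k ≤ 12, P (ofMask (enc (m % 2 ^ k))) := by
    intro k
    induction k with
    | zero =>
      intro _
      have : enc 0 = 0 := by decide
      rw [pow_zero, Nat.mod_one, this, ofMask_zero]; exact h0
    | succ k ih =>
      intro hk
      have h1 := ih (by omega)
      by_cases hb : m.testBit k = true
      · have : m % 2 ^ (k + 1) = (m % 2 ^ k) ^^^ 2 ^ k := by
          apply Nat.eq_of_testBit_eq
          intro i
          rw [Nat.testBit_xor, Nat.testBit_mod_two_pow, Nat.testBit_mod_two_pow,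
            Nat.testBit_two_pow]
          by_cases h2 : k = i
          · subst h2; simp [hb]
          · have : (i < k + 1) = (i < k) := propext (by omega)
            simp [h2, this]
        rw [this, enc_xor, ofMask_xor]
        exact hx _ _ (cw_enc _) (cw_enc _) h1 (h k (by omega))
      · have : m % 2 ^ (k + 1) = m % 2 ^ k := by
          apply Nat.eq_of_testBit_eq
          intro i
          rw [Nat.testBit_mod_two_pow, Nat.testBit_mod_two_pow]
          by_cases h2 : k = i
          · subst h2; simp [hb]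
          · have : (i < k + 1) = (i < k) := propext (by omega)
            simp [this]
        rwa [this]
  have h2 := this 12 le_rfl
  rwa [Nat.mod_eq_of_lt (show m < 2 ^ 12 from hm)] at h2

theorem cw_congr {s t : Finset GolayPt} (h : Cw s) (e : ∀ p, p ∈ t ↔ p ∈ s) : Cw t :=
  (Finset.ext e : t = s) ▸ h

theorem card_symmDiff_inter (s t b : Finset GolayPt) :
    (b ∩ (s ∆ t)).card % 2 = ((b ∩ s).card + (b ∩ t).card) % 2 := by
  have h1 : b ∩ (s ∆ t) = (b ∩ s) ∆ (b ∩ t) := by
    ext p; simp only [Finset.mem_inter, Finset.mem_symmDiff]; tauto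
  have := card_symmDiff_add (b ∩ s) (b ∩ t)
  rw [h1]; omega

/-- the code is self-dual -/
theorem cw_of_even {s : Finset GolayPt}
    (h : ∀ j < 12, (ofMask (enc (2 ^ j)) ∩ s).card % 2 = 0) : Cw s := by
  obtain ⟨m, hm, rfl⟩ := exists_mask s
  have key : allN 4096 (fun u => orB (Nat.beq u 0) (Bool.not (force (Nat.mul u 4096) fun t =>
      allN 12 fun j => Nat.beq (Nat.mod (pc (Nat.land (enc (Nat.pow 2 j)) t)) 2) 0))) = true := by
    decide +kernel
  have h1 : (m ^^^ enc m) % 4096 = 0 := by
    have := Nat.xor_mod_two_pow (a := m) (b := enc m) (n := 12)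
    rw [show (2 : ℕ) ^ 12 = 4096 from rfl, enc_mod', Nat.xor_self] at this
    exact this
  have h2 : m ^^^ enc m < 2 ^ 24 := Nat.xor_lt_two_pow hm (enc_lt m)
  have h3 := allN_spec key ((m ^^^ enc m) / 4096) (by omega)
  have e : Nat.mul ((m ^^^ enc m) / 4096) 4096 = m ^^^ enc m := by
    show (m ^^^ enc m) / 4096 * 4096 = _; omega
  rw [orB_eq, force_eq, e, Bool.or_eq_true, Nat.beq_eq] at h3
  rcases h3 with h3 | h3
  · have : m ^^^ enc m = 0 := by omega
    rw [Nat.xor_eq_zero_iff.1 this]; exact cw_enc m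
  · exfalso
    have h4 : ∀ n ≤ 12, allN n (fun j =>
        Nat.beq (Nat.mod (pc (Nat.land (enc (Nat.pow 2 j)) (m ^^^ enc m))) 2) 0) = true := by
      intro n
      induction n with
      | zero => intro _; rfl
      | succ n ih =>
        intro hn
        show andB _ (allN n _) = true
        rw [ih (by omega), andB_eq, Bool.and_true, Nat.beq_eq]
        show pc (enc (2 ^ n) &&& (m ^^^ enc m)) % 2 = 0
        rw [← card_ofMask, ofMask_and, ofMask_xor, card_symmDiff_inter]
        have a1 := h n (by omega)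
        have a2 := Cw.even_inter (cw_enc (2 ^ n)) (cw_enc m)
        omega
    rw [h4 12 le_rfl] at h3
    cases h3

theorem card_basis : ∀ j < 12, (ofMask (enc (2 ^ j))).card = 8 := by
  intro j hj; rw [card_ofMask]; revert j; decide +kernel

theorem Cw.card_mod {s : Finset GolayPt} (h : Cw s) : s.card % 4 = 0 := by
  have := h.card'; omega

/-- the coordinates congruent to 2 or 3 modulo 4 -/
def hb (x : V) : Finset GolayPt := Finset.univ.filter fun p => 2 ≤ x p % 4

@[simp] theorem mem_hb {x : V} {p : GolayPt} : p ∈ hb x ↔ 2 ≤ x p % 4 := by simp [hb]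

/-- the defining congruences, with parity `m` -/
structure InL (m : ℤ) (x : V) : Prop where
  /-- the parity -/
  hm : m = 0 ∨ m = 1
  /-- all coordinates have the parity `m` -/
  par : ∀ p, x p % 2 = m
  /-- the coordinate sum -/
  sum : (∑ p, x p) % 8 = 4 * m
  /-- the code word -/
  cw : Cw (hb x)

theorem leechSet_iff {x : V} : x ∈ leechSet ↔ ∃ m, InL m x := by
  constructor
  · rintro ⟨m, h1, h2, h3⟩
    have h1' : ∀ p, x p % 2 = m % 2 := h1
    have h2' : (∑ p, x p) % 8 = (4 * m) % 8 := h2
    refine ⟨m % 2, by omega, h1', by omega, ?_⟩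
    refine cw_congr (h3 (m % 2 + 2)) fun p => ?_
    have := h1' p
    rw [mem_hb, Finset.mem_filter, and_iff_right (Finset.mem_univ _)]
    unfold Int.ModEq
    omega
  · rintro ⟨m, h0, h1, h2, h3⟩
    refine ⟨m, fun p => ?_, ?_, fun k => ?_⟩
    · have := h1 p; unfold Int.ModEq; omega
    · unfold Int.ModEq; omega
    · by_cases hk : k % 4 = m + 2
      · refine cw_congr h3 fun p => ?_
        have := h1 p
        rw [mem_hb, Finset.mem_filter, and_iff_right (Finset.mem_univ _)]
        unfold Int.ModEq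
        omega
      by_cases hk' : k % 4 = m
      · refine cw_congr h3.compl fun p => ?_
        have := h1 p
        rw [Finset.mem_compl, mem_hb, Finset.mem_filter, and_iff_right (Finset.mem_univ _)]
        unfold Int.ModEq
        omega
      · refine cw_congr cw_empty fun p => ?_
        have := h1 p
        rw [Finset.mem_filter, and_iff_right (Finset.mem_univ _),
          iff_false_right (Finset.notMem_empty p)]
        unfold Int.ModEq
        omega

theorem sum_ite_mem' (b s : Finset GolayPt) (c : ℤ) :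
    ∑ p ∈ b, (if p ∈ s then c else 0) = c * (b ∩ s).card := by
  rw [Finset.sum_ite_mem]; simp [mul_comm]

theorem sum_mod4 {m : ℤ} {x : V} (hm : m = 0 ∨ m = 1) (h : ∀ p, x p % 2 = m) (b : Finset GolayPt) :
    (∑ p ∈ b, x p) % 4 = (m * b.card + 2 * (b ∩ hb x).card) % 4 := by
  have : (4 : ℤ) ∣ ∑ p ∈ b, (x p - (m + if p ∈ hb x then 2 else 0)) := by
    apply Finset.dvd_sum
    intro p _
    have := h p
    simp only [mem_hb]
    split_ifs <;> omega
  rw [Finset.sum_sub_distrib, Finset.sum_add_distrib, sum_ite_mem', Finset.sum_const,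
    nsmul_eq_mul, mul_comm _ m] at this
  omega

/-- the description by inner products -/
def Dual (x : V) : Prop := (∀ p, (x p - x (pt 0)) % 2 = 0) ∧
  (∑ p, x p - 4 * x (pt 0)) % 8 = 0 ∧ ∀ j < 12, (∑ p ∈ ofMask (enc (2 ^ j)), x p) % 4 = 0

theorem dual_iff {x : V} : Dual x ↔ ∃ m, InL m x := by
  constructor
  · rintro ⟨h1, h2, h3⟩
    have hm : x (pt 0) % 2 = 0 ∨ x (pt 0) % 2 = 1 := by omega
    have hp : ∀ p, x p % 2 = x (pt 0) % 2 := fun p => by have := h1 p; omega
    refine ⟨x (pt 0) % 2, hm, hp, by omega, cw_of_even fun j hj => ?_⟩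
    have := sum_mod4 hm hp (ofMask (enc (2 ^ j)))
    rw [h3 j hj, card_basis j hj] at this
    omega
  · rintro ⟨m, h0, h1, h2, h3⟩
    refine ⟨fun p => ?_, ?_, fun j hj => ?_⟩
    · have := h1 p; have := h1 (pt 0); omega
    · have := h1 (pt 0); omega
    · have := Cw.even_inter (cw_enc (2 ^ j)) h3
      rw [sum_mod4 h0 h1, card_basis j hj]; omega

/-- the lattice described by inner products -/
def dualSub : AddSubgroup V where
  carrier := {x | Dual x}
  zero_mem' := ⟨by simp, by simp, by simp⟩
  add_mem' := by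
    rintro x y ⟨a1, a2, a3⟩ ⟨b1, b2, b3⟩
    refine ⟨fun p => ?_, ?_, fun j hj => ?_⟩
    · have := a1 p; have := b1 p; simp only [Pi.add_apply]; omega
    · simp only [Pi.add_apply, Finset.sum_add_distrib]; omega
    · have h1 := a3 j hj; have h2 := b3 j hj
      generalize ofMask (enc (2 ^ j)) = b at h1 h2 ⊢
      simp only [Pi.add_apply, Finset.sum_add_distrib]; omega
  neg_mem' := by
    rintro x ⟨a1, a2, a3⟩
    refine ⟨fun p => ?_, ?_, fun j hj => ?_⟩
    · have := a1 p; simp only [Pi.neg_apply]; omega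
    · simp only [Pi.neg_apply, Finset.sum_neg_distrib]; omega
    · have h1 := a3 j hj
      generalize ofMask (enc (2 ^ j)) = b at h1 ⊢
      simp only [Pi.neg_apply, Finset.sum_neg_distrib]; omega

theorem mem_L_dual {x : V} : x ∈ leechLattice ↔ Dual x := by
  constructor
  · intro h
    exact (AddSubgroup.closure_le dualSub).2 (fun y hy => dual_iff.2 (leechSet_iff.1 hy)) h
  · intro h; exact AddSubgroup.subset_closure (leechSet_iff.2 (dual_iff.1 h))

theorem mem_L {x : V} : x ∈ leechLattice ↔ ∃ m, InL m x := mem_L_dual.trans dual_iff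

theorem InL.mem {m : ℤ} {x : V} (h : InL m x) : x ∈ leechLattice := mem_L.2 ⟨m, h⟩

theorem inL_of_par {x : V} (hx : x ∈ leechLattice) {p : GolayPt} {m : ℤ} (h : x p % 2 = m) :
    InL m x := by
  obtain ⟨m', h'⟩ := mem_L.1 hx
  rwa [← h, h'.par p]

/-! ### Norms and inner products -/

theorem sqNorm_eq_dot (x : V) : sqNorm x = dotInt x x := by simp [sqNorm, dotInt, sq]
theorem dot_comm (x y : V) : dotInt x y = dotInt y x := by simp [dotInt, mul_comm]
theorem dot_add_left (x y z : V) : dotInt (x + y) z = dotInt x z + dotInt y z := by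
  simp [dotInt, add_mul, Finset.sum_add_distrib]
theorem dot_add_right (x y z : V) : dotInt x (y + z) = dotInt x y + dotInt x z := by
  simp [dotInt, mul_add, Finset.sum_add_distrib]
theorem dot_neg_left (x y : V) : dotInt (-x) y = -dotInt x y := by simp [dotInt]
theorem dot_neg_right (x y : V) : dotInt x (-y) = -dotInt x y := by simp [dotInt]
theorem dot_sub_left (x y z : V) : dotInt (x - y) z = dotInt x z - dotInt y z := by
  simp [dotInt, sub_mul, Finset.sum_sub_distrib]
theorem dot_sub_right (x y z : V) : dotInt x (y - z) = dotInt x y - dotInt x z := by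
  simp [dotInt, mul_sub, Finset.sum_sub_distrib]
theorem dot_smul_left (c : ℤ) (x y : V) : dotInt (c • x) y = c * dotInt x y := by
  simp [dotInt, Finset.mul_sum, mul_assoc]
theorem dot_smul_right (c : ℤ) (x y : V) : dotInt x (c • y) = c * dotInt x y := by
  rw [dot_comm, dot_smul_left, dot_comm]
theorem dot_zero_left (x : V) : dotInt 0 x = 0 := by simp [dotInt]
theorem sqNorm_add (x y : V) : sqNorm (x + y) = sqNorm x + 2 * dotInt x y + sqNorm y := by
  simp only [sqNorm_eq_dot, dot_add_left, dot_add_right, dot_comm y x]; ring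
theorem sqNorm_sub (x y : V) : sqNorm (x - y) = sqNorm x - 2 * dotInt x y + sqNorm y := by
  simp only [sqNorm_eq_dot, dot_sub_left, dot_sub_right, dot_comm y x]; ring
theorem sqNorm_neg (x : V) : sqNorm (-x) = sqNorm x := by simp [sqNorm]
theorem sqNorm_smul (c : ℤ) (x : V) : sqNorm (c • x) = c ^ 2 * sqNorm x := by
  simp only [sqNorm_eq_dot, dot_smul_left, dot_smul_right]; ring
theorem sqNorm_nonneg (x : V) : 0 ≤ sqNorm x := Finset.sum_nonneg fun _ _ => sq_nonneg _
theorem sq_le_sqNorm (x : V) (p : GolayPt) : x p ^ 2 ≤ sqNorm x :=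
  Finset.single_le_sum (f := fun p => x p ^ 2) (fun _ _ => sq_nonneg _) (Finset.mem_univ p)
theorem sqNorm_eq_zero {x : V} (h : sqNorm x = 0) : x = 0 := by
  funext p
  have := sq_le_sqNorm x p
  rw [h] at this
  exact pow_eq_zero_iff (two_ne_zero) |>.1 (le_antisymm this (sq_nonneg _))
theorem dot_single (p : GolayPt) (c : ℤ) (x : V) : dotInt (Pi.single p c) x = c * x p := by
  unfold dotInt
  rw [Finset.sum_eq_single p] <;> simp +contextual [Pi.single_apply]

theorem sq_mod16_even (a : ℤ) (h : a % 2 = 0) :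
    (16 : ℤ) ∣ a ^ 2 - if 2 ≤ a % 4 then 4 else 0 := by
  obtain ⟨k, r, hr, rfl⟩ : ∃ k r : ℤ, (r = 0 ∨ r = 2) ∧ a = 4 * k + r :=
    ⟨a / 4, a % 4, by omega, by omega⟩
  rcases hr with rfl | rfl
  · rw [if_neg (by omega)]; exact ⟨k ^ 2, by ring⟩
  · rw [if_pos (by omega)]; exact ⟨k ^ 2 + k, by ring⟩

theorem sq_mod16_odd (a : ℤ) (h : a % 2 = 1) :
    (16 : ℤ) ∣ a ^ 2 - (2 * a + (if 2 ≤ a % 4 then 4 else 0) - 1) := by
  obtain ⟨k, r, hr, rfl⟩ : ∃ k r : ℤ, (r = 1 ∨ r = 3) ∧ a = 4 * k + r :=
    ⟨a / 4, a % 4, by omega, by omega⟩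
  rcases hr with rfl | rfl
  · rw [if_neg (by omega)]; exact ⟨k ^ 2, by ring⟩
  · rw [if_pos (by omega)]; exact ⟨k ^ 2 + k, by ring⟩

theorem sum_ite_hb (x : V) (c : ℤ) :
    ∑ p, (if 2 ≤ x p % 4 then c else 0) = c * (hb x).card := by
  have := sum_ite_mem' Finset.univ (hb x) c
  simpa using this

theorem norm_mod {x : V} (hx : x ∈ leechLattice) : sqNorm x % 16 = 0 := by
  obtain ⟨m, h0, h1, h2, h3⟩ := mem_L.1 hx
  have h4 := Cw.card_mod h3
  rcases h0 with rfl | rfl
  · have := Finset.dvd_sum (s := Finset.univ) fun p _ => sq_mod16_even (x p) (h1 p)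
    rw [Finset.sum_sub_distrib, sum_ite_hb] at this
    unfold sqNorm; omega
  · have := Finset.dvd_sum (s := Finset.univ) fun p _ => sq_mod16_odd (x p) (h1 p)
    rw [Finset.sum_sub_distrib, Finset.sum_sub_distrib, Finset.sum_add_distrib, sum_ite_hb,
      ← Finset.mul_sum] at this
    simp only [Finset.sum_const, Finset.card_univ, card_pt, nsmul_eq_mul] at this
    unfold sqNorm; omega

theorem dot_mod {x y : V} (hx : x ∈ leechLattice) (hy : y ∈ leechLattice) :
    dotInt x y % 8 = 0 := by
  have h1 := norm_mod hx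
  have h2 := norm_mod hy
  have h3 := norm_mod (leechLattice.add_mem hx hy)
  rw [sqNorm_add] at h3
  omega

theorem odd_norm {x : V} (h : ∀ p, x p % 2 = 1) : 24 ≤ sqNorm x := by
  have : ∑ _p : GolayPt, (1 : ℤ) ≤ ∑ p, x p ^ 2 := Finset.sum_le_sum fun p _ => by
    have := h p
    have h1 : x p ≠ 0 := by omega
    have := sq_pos_of_ne_zero h1
    omega
  simpa [card_pt, sqNorm] using this

theorem hb_norm (x : V) (h : ∀ p, x p % 2 = 0) : 4 * ((hb x).card : ℤ) ≤ sqNorm x := by
  rw [← sum_ite_hb]
  refine Finset.sum_le_sum fun p _ => ?_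
  split_ifs with h1
  · have := h p
    have h2 : 2 ≤ x p ∨ x p ≤ -2 := by omega
    rcases h2 with h2 | h2 <;> nlinarith
  · positivity

theorem four_norm {x : V} (h : ∀ p, x p % 4 = 0) : (32 : ℤ) ∣ sqNorm x - 4 * ∑ p, x p := by
  unfold sqNorm
  rw [Finset.mul_sum, ← Finset.sum_sub_distrib]
  refine Finset.dvd_sum fun p _ => ?_
  obtain ⟨k, hk⟩ : ∃ k, x p = 4 * k := ⟨x p / 4, by have := h p; omega⟩
  obtain ⟨c, hc⟩ := Int.even_mul_pred_self k
  exact ⟨c, by rw [hk]; linear_combination 16 * hc⟩

theorem norm_ne_16 {x : V} (hx : x ∈ leechLattice) : sqNorm x ≠ 16 := by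
  intro h
  obtain ⟨m, h0, h1, h2, h3⟩ := mem_L.1 hx
  rcases h0 with rfl | rfl
  · have a1 := hb_norm x h1
    have a2 := h3.card'
    have a3 : hb x = ∅ := Finset.card_eq_zero.1 (by omega)
    have a4 := four_norm (x := x) fun p => by
      have b1 := h1 p
      have b2 : ¬ 2 ≤ x p % 4 := by rw [← mem_hb, a3]; simp
      omega
    omega
  · have := odd_norm h1; omega

theorem norm_ge {x : V} (hx : x ∈ leechLattice) (h : x ≠ 0) : 32 ≤ sqNorm x := by
  have h1 := norm_mod hx
  have h2 := norm_ne_16 hx
  have h3 := sqNorm_nonneg x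
  have h4 : sqNorm x ≠ 0 := fun e => h (sqNorm_eq_zero e)
  omega

theorem finite_norm (n : ℤ) : {x : V | sqNorm x = n}.Finite := by
  refine (Set.Finite.pi' (fun _ : GolayPt => Set.finite_Icc (-n) n)).subset fun x hx p => ?_
  have h1 := sq_le_sqNorm x p
  rw [show sqNorm x = n from hx] at h1
  constructor <;> nlinarith [sq_nonneg (x p - 1), sq_nonneg (x p + 1), sq_nonneg (x p)]

theorem finite_normL (n : ℤ) : {x : L | sqNorm (x : V) = n}.Finite :=
  (finite_norm n).preimage Subtype.val_injective.injOn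

/-! ### Generators -/

/-- twice the characteristic vector -/
def two (c : Finset GolayPt) : V := fun p => if p ∈ c then 2 else 0

theorem two_inL {c : Finset GolayPt} (h : Cw c) : InL 0 (two c) := by
  refine ⟨Or.inl rfl, fun p => ?_, ?_, ?_⟩
  · unfold two; split_ifs <;> rfl
  · have := sum_ite_mem' Finset.univ c 2
    have h1 := Cw.card_mod h
    unfold two
    rw [this, Finset.univ_inter]; omega
  · refine cw_congr h fun p => ?_
    unfold two; rw [mem_hb]; split_ifs with h1 <;> simp [h1]

theorem four_mem {x : V} (h : ∀ p, x p % 4 = 0) (hs : (∑ p, x p) % 8 = 0) : InL 0 x := by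
  refine ⟨Or.inl rfl, fun p => by have := h p; omega, hs, ?_⟩
  refine cw_congr cw_empty fun p => ?_
  rw [mem_hb, h p]; simp

/-- the generators -/
def gen (k : ℕ) : V :=
  if k = 0 then Pi.single (pt 0) 4 + Pi.single (pt 1) 4
  else if k < 24 then Pi.single (pt k) 4 - Pi.single (pt 0) 4
  else if k < 36 then two (ofMask (enc (2 ^ (k - 24))))
  else fun p => if p = pt 0 then -3 else 1

theorem gen36_inL : InL 1 (gen 36) := by
  refine ⟨Or.inr rfl, by decide, by decide, ?_⟩
  have : hb (gen 36) = ∅ := by decide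
  rw [this]; exact cw_empty

theorem gen_facts : ∀ k < 37, Dual (gen k) ∧ sqNorm (gen k) = 32 := by
  unfold Dual; decide +kernel

theorem gen_mem {k : ℕ} (hk : k < 37) : gen k ∈ leechLattice := mem_L_dual.2 (gen_facts k hk).1

theorem L_le {S : AddSubgroup V} (h : ∀ k < 37, gen k ∈ S) : leechLattice ≤ S := by
  have a1 : ∀ p, (Pi.single p 4 - Pi.single (pt 0) 4 : V) ∈ S := by
    refine forall_pt fun k hk => ?_
    by_cases h0 : k = 0
    · subst h0; rw [sub_self]; exact S.zero_mem
    · have := h k (by omega)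
      unfold gen at this
      rwa [if_neg h0, if_pos hk] at this
  have a2 : (Pi.single (pt 0) 8 : V) ∈ S := by
    have e : (Pi.single (pt 0) 8 : V) = gen 0 - gen 1 := by decide
    rw [e]; exact S.sub_mem (h 0 (by omega)) (h 1 (by omega))
  have A : ∀ x : V, (∀ p, x p % 4 = 0) → (∑ p, x p) % 8 = 0 → x ∈ S := by
    intro x h1 h2
    have e : x = ∑ p, (x p / 4) • (Pi.single p 4 - Pi.single (pt 0) 4 : V) +
        ((∑ p, x p) / 8) • (Pi.single (pt 0) 8 : V) := by
      have e1 : ∑ p, x p / 4 * 4 = ∑ p, x p :=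
        Finset.sum_congr rfl fun p _ => by have := h1 p; omega
      funext q
      simp only [Pi.add_apply, Finset.sum_apply, Pi.smul_apply, Pi.sub_apply, smul_eq_mul, mul_sub,
        Finset.sum_sub_distrib, Pi.single_apply, mul_ite, mul_zero, Finset.sum_ite_eq,
        Finset.mem_univ, if_true]
      have := h1 q
      split_ifs with h3
      · rw [e1]; omega
      · simp only [Finset.sum_const_zero]; omega
    rw [e]
    exact S.add_mem (S.sum_mem fun p _ => S.zsmul_mem (a1 p) _) (S.zsmul_mem a2 _)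
  have B : ∀ c, Cw c → two c ∈ S := by
    intro c hc
    refine Cw.induction (P := fun c => two c ∈ S) ?_ (fun s t hs ht b1 b2 => ?_) (fun j hj => ?_) hc
    · have : two ∅ = 0 := by funext p; simp [two]
      rw [this]; exact S.zero_mem
    · have e : two (s ∆ t) = two s + two t - fun p => if p ∈ s ∩ t then 4 else 0 := by
        funext p
        by_cases c1 : p ∈ s <;> by_cases c2 : p ∈ t <;> simp [two, Finset.mem_symmDiff, c1, c2]
      rw [e]
      refine S.sub_mem (S.add_mem b1 b2) (A _ (fun p => by split_ifs <;> rfl) ?_)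
      have := Cw.even_inter hs ht
      rw [sum_ite_mem', Finset.univ_inter]; omega
    · have := h (24 + j) (by omega)
      unfold gen at this
      rwa [if_neg (by omega), if_neg (by omega), if_pos (by omega), Nat.add_sub_cancel_left] at this
  have C : ∀ x : V, InL 0 x → x ∈ S := by
    intro x hx
    have h1 := (two_inL hx.cw).sum
    have h2 := hx.sum
    have := A (x - two (hb x)) (fun p => by
      have := hx.par p
      simp only [Pi.sub_apply, two, mem_hb]
      split_ifs <;> omega) (by simp only [Pi.sub_apply, Finset.sum_sub_distrib]; omega)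
    simpa using S.add_mem this (B _ hx.cw)
  intro x hx
  obtain ⟨m, hm⟩ := mem_L.1 hx
  rcases hm.hm with rfl | rfl
  · exact C x hm
  · have := C (x - gen 36) (inL_of_par (leechLattice.sub_mem hx gen36_inL.mem) (p := pt 0) (by
      have := hm.par (pt 0)
      have := gen36_inL.par (pt 0)
      simp only [Pi.sub_apply]; omega))
    simpa using S.add_mem this (h 36 (by omega))

theorem dual_of_gen {x : V} (h : ∀ k < 37, dotInt (gen k) x % 8 = 0) : x ∈ leechLattice := by
  rw [mem_L_dual]
  refine ⟨forall_pt fun k hk => ?_, ?_, fun j hj => ?_⟩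
  · by_cases h0 : k = 0
    · subst h0; simp
    · have := h k (by omega)
      unfold gen at this
      rw [if_neg h0, if_pos hk, dot_sub_left, dot_single, dot_single] at this
      omega
  · have := h 36 (by omega)
    have e : gen 36 = (fun _ => 1) - Pi.single (pt 0) 4 := by decide
    rw [e, dot_sub_left, dot_single] at this
    simpa [dotInt] using this
  · have := h (24 + j) (by omega)
    unfold gen at this
    rw [if_neg (by omega), if_neg (by omega), if_pos (by omega), Nat.add_sub_cancel_left] at this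
    have e : ∀ c, dotInt (two c) x = 2 * ∑ p ∈ c, x p := by
      intro c
      simp [dotInt, two, Finset.mul_sum]
    rw [e] at this
    omega

end Cfsg.Agent.Leech
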