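import Mathlib

/-!
Even lattices without roots modulo twice the lattice.
-/

set_option autoImplicit false

namespace Cfsg.Agent.Leech

/-- a positive definite even form without roots -/
structure Rootless {M : Type*} [AddCommGroup M] (β : M →ₗ[ℤ] M →ₗ[ℤ] ℤ) : Prop where
  /-- symmetric -/
  symm : ∀ x y, β x y = β y x
  /-- positive -/
  pos : ∀ x, x ≠ 0 → 0 < β x x
  /-- even -/
  even : ∀ x, (2 : ℤ) ∣ β x x
  /-- no roots -/
  ne_two : ∀ x, β x x ≠ 2

variable {M : Type*} [AddCommGroup M] {β : M →ₗ[ℤ] M →ₗ[ℤ] ℤ}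

theorem Rootless.four_le (h : Rootless β) {x : M} (hx : x ≠ 0) : 4 ≤ β x x := by
  have := h.pos x hx; have := h.even x; have := h.ne_two x; omega

theorem Rootless.short (h : Rootless β) {x y z : M} (hx : β x x ≤ 8) (hy : β y y ≤ 8)
    (hz : x - y = (2 : ℤ) • z) : y = x ∨ y = -x ∨ (β x x = 8 ∧ β y y = 8 ∧ β x y = 0) := by
  by_cases h1 : z = 0
  · left; rw [h1, smul_zero, sub_eq_zero] at hz; exact hz.symm
  by_cases h2 : z + y = 0
  · right; left
    have : x + y = (2 : ℤ) • (z + y) := by rw [smul_add, ← hz, two_smul]; abel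
    rw [h2, smul_zero] at this
    exact eq_neg_of_add_eq_zero_right this
  have a1 := h.four_le h1
  have a2 := h.four_le h2
  have e : x = (2 : ℤ) • z + y := by rw [← hz]; abel
  subst e
  simp only [map_add, map_smul, LinearMap.add_apply, LinearMap.smul_apply, smul_eq_mul,
    h.symm y z] at *
  right; right; omega

theorem Rootless.card_orth [Module.Finite ℤ M] (h : Rootless β) {ι : Type*} [Fintype ι]
    (v : ι → M) (h0 : ∀ i, v i ≠ 0) (ho : ∀ i j, i ≠ j → β (v i) (v j) = 0) :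
    Fintype.card ι ≤ Module.finrank ℤ M := by
  apply LinearIndependent.fintype_card_le_finrank (b := v)
  rw [Fintype.linearIndependent_iff]
  intro g hg j
  have := congrArg (β (v j)) hg
  rw [map_sum, map_zero, Finset.sum_eq_single j (fun i _ hi => by
    rw [map_smul, ho j i (Ne.symm hi), smul_zero]) (by simp), map_smul, smul_eq_mul] at this
  exact (mul_eq_zero.1 this).resolve_right (h.pos _ (h0 j)).ne'

theorem Rootless.card_frame [Module.Finite ℤ M] (h : Rootless β) (hr : Module.finrank ℤ M ≤ 24)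
    (F : Finset M) (h0 : ∀ x ∈ F, x ≠ 0)
    (ho : ∀ x ∈ F, ∀ y ∈ F, y = x ∨ y = -x ∨ β x y = 0) : F.card ≤ 48 := by
  classical
  let f : M → Finset M := fun x => {x, -x}
  have h1 := Finset.card_le_mul_card_image (f := f) F 2 fun b hb => by
    obtain ⟨x, _, rfl⟩ := Finset.mem_image.1 hb
    refine (Finset.card_le_card (t := f x) fun y hy => ?_).trans Finset.card_le_two
    rw [← (Finset.mem_filter.1 hy).2]; simp [f]
  have h2 : ∀ b : F.image f, ∃ x ∈ F, f x = b := fun b => Finset.mem_image.1 b.2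
  choose v hv hv' using h2
  have h3 := h.card_orth v (fun i => h0 _ (hv i)) fun i j hij => by
    rcases ho _ (hv i) _ (hv j) with e | e | e
    · exact absurd (Subtype.ext (by rw [← hv', ← hv', e])) hij
    · refine absurd (Subtype.ext ?_) hij
      rw [← hv', ← hv', e]; simp [f, Finset.pair_comm]
    · exact e
  rw [Fintype.card_coe] at h3
  omega

theorem modN_eq_iff (x y : M) : ModN.mkQ 2 x = ModN.mkQ 2 y ↔ ∃ z, x - y = (2 : ℤ) • z := by
  refine (Submodule.Quotient.eq _).trans ?_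
  exact ⟨fun ⟨z, hz⟩ => ⟨z, hz.symm⟩, fun ⟨z, hz⟩ => ⟨z, hz.symm⟩⟩

theorem Rootless.classes [Module.Free ℤ M] [Module.Finite ℤ M] (h : Rootless β)
    (hr : Module.finrank ℤ M ≤ 24) (h4 : {x | β x x = 4}.ncard = 196560)
    (h6 : {x | β x x = 6}.ncard = 16773120) (h8 : {x | β x x = 8}.ncard = 398034000) (x : M) :
    (∃ y, β y y ≤ 8 ∧ ∃ z, x - y = (2 : ℤ) • z) ∧
      (β x x = 8 → {y | β y y = 8 ∧ ∃ z, x - y = (2 : ℤ) • z}.ncard = 48) := by
  classical
  have f4 : {x | β x x = 4}.Finite := Set.finite_of_ncard_ne_zero (by omega)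
  have f6 : {x | β x x = 6}.Finite := Set.finite_of_ncard_ne_zero (by omega)
  have f8 : {x | β x x = 8}.Finite := Set.finite_of_ncard_ne_zero (by omega)
  rw [Set.ncard_eq_toFinset_card _ f4] at h4
  rw [Set.ncard_eq_toFinset_card _ f6] at h6
  rw [Set.ncard_eq_toFinset_card _ f8] at h8
  let S : Finset M := {0} ∪ f4.toFinset ∪ f6.toFinset ∪ f8.toFinset
  have hS : ∀ y, y ∈ S ↔ β y y ≤ 8 := by
    intro y
    simp only [S, Finset.mem_union, Finset.mem_singleton, Set.Finite.mem_toFinset,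
      Set.mem_ofPred_eq]
    by_cases hy : y = 0
    · subst hy; simp
    · have := h.four_le hy; have := h.even y; simp only [hy, false_or]; omega
  let w : M → ℕ := fun y => if β y y = 8 then 1 else if y = 0 then 48 else 24
  have hw : ∑ y ∈ S, w y = 48 * 2 ^ 24 := by
    have c : ∀ (T : Finset M) (n : ℤ) (k : ℕ), n ≠ 0 → (∀ y ∈ T, β y y = n) →
        (if n = 8 then 1 else 24) = k → ∑ y ∈ T, w y = T.card * k := by
      intro T n k hn hT hk
      rw [Finset.sum_congr rfl (g := fun _ => k), Finset.sum_const, smul_eq_mul]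
      intro y hy
      have : y ≠ 0 := by rintro rfl; exact hn (by rw [← hT _ hy]; simp)
      simp only [w, hT y hy, this, if_false, hk]
    rw [Finset.sum_union, Finset.sum_union, Finset.sum_union, c f4.toFinset 4 24 (by omega) (by simp) rfl,
      c f6.toFinset 6 24 (by omega) (by simp) rfl, c f8.toFinset 8 1 (by omega) (by simp) rfl, h4, h6, h8]
    · simp [w]
    all_goals
      rw [Finset.disjoint_left]
      intro y h1 h2
      simp only [Finset.mem_union, Finset.mem_singleton, Set.Finite.mem_toFinset,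
        Set.mem_ofPred_eq] at h1 h2
      by_cases hy : y = 0
      · subst hy; simp at h2
      · simp only [hy, false_or] at h1 <;> omega
  have := Fintype.ofFinite (ModN M 2)
  have hfib : ∀ κ : ModN M 2, ∑ y ∈ S with ModN.mkQ 2 y = κ, w y ≤ 48 := by
    intro κ
    have hsh : ∀ a ∈ S.filter fun y => ModN.mkQ 2 y = κ, ∀ b ∈ S.filter fun y => ModN.mkQ 2 y = κ,
        b = a ∨ b = -a ∨ (β a a = 8 ∧ β b b = 8 ∧ β a b = 0) := by
      intro a ha b hb
      rw [Finset.mem_filter, hS] at ha hb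
      obtain ⟨z, hz⟩ := (modN_eq_iff a b).1 (ha.2.trans hb.2.symm)
      exact h.short ha.1 hb.1 hz
    by_cases hc : ∃ a ∈ S.filter fun y => ModN.mkQ 2 y = κ, β a a ≠ 8
    · obtain ⟨a, ha, h1⟩ := hc
      have hs : (S.filter fun y => ModN.mkQ 2 y = κ) ⊆ {a, -a} := fun b hb => by
        rcases hsh a ha b hb with e | e | e
        · simp [e]
        · simp [e]
        · exact absurd e.1 h1
      refine (Finset.sum_le_sum_of_subset hs).trans ?_
      by_cases h0 : a = 0
      · subst h0; simp [w]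
      · refine (Finset.sum_le_card_nsmul _ _ 24 fun y hy => ?_).trans ?_
        · simp only [Finset.mem_insert, Finset.mem_singleton] at hy
          rcases hy with rfl | rfl <;> simp [w, h0, h1]
        · have : ({a, -a} : Finset M).card ≤ 2 := Finset.card_le_two
          rw [smul_eq_mul]; omega
    · push Not at hc
      rw [Finset.sum_congr rfl (g := fun _ => 1) fun y hy => if_pos (hc y hy), Finset.sum_const,
        smul_eq_mul, mul_one]
      refine h.card_frame hr _ (fun y hy e => ?_) fun a ha b hb => ?_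
      · have := hc y hy; rw [e] at this; simp at this
      · have := hsh a ha b hb; tauto
  have hall : ∀ κ : ModN M 2, ∑ y ∈ S with ModN.mkQ 2 y = κ, w y = 48 := by
    by_contra hc
    push Not at hc
    obtain ⟨κ, hκ⟩ := hc
    have h1 := Finset.sum_lt_sum (s := Finset.univ) (fun κ _ => hfib κ)
      ⟨κ, Finset.mem_univ _, lt_of_le_of_ne (hfib κ) hκ⟩
    have e : ∑ κ, ∑ y ∈ S with ModN.mkQ 2 y = κ, w y = ∑ y ∈ S, w y := by
      convert Finset.sum_fiberwise S (ModN.mkQ 2) w
    rw [e, hw, Finset.sum_const, Finset.card_univ, ← Nat.card_eq_fintype_card,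
      ModN.natCard_eq, smul_eq_mul] at h1
    have : 2 ^ Module.finrank ℤ M ≤ 2 ^ 24 := Nat.pow_le_pow_right (by norm_num) hr
    omega
  have h1 := hall (ModN.mkQ 2 x)
  constructor
  · obtain ⟨y, hy⟩ := Finset.nonempty_of_sum_ne_zero (h1.trans_ne (by norm_num))
    rw [Finset.mem_filter, hS] at hy
    exact ⟨y, hy.1, (modN_eq_iff x y).1 hy.2.symm⟩
  · intro hx
    have e : ∀ y, y ∈ (S.filter fun y => ModN.mkQ 2 y = ModN.mkQ 2 x) ↔
        β y y = 8 ∧ ∃ z, x - y = (2 : ℤ) • z := by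
      intro y
      rw [Finset.mem_filter, hS, eq_comm, modN_eq_iff]
      refine ⟨fun ⟨a1, z, hz⟩ => ⟨?_, z, hz⟩, fun ⟨a1, a2⟩ => ⟨a1.le, a2⟩⟩
      rcases h.short hx.le a1 hz with e | e | e
      · rwa [e]
      · rw [e]; simpa using hx
      · exact e.2.1
    rw [Finset.sum_congr rfl (g := fun _ => 1) fun y hy => if_pos ((e y).1 hy).1, Finset.sum_const,
      smul_eq_mul, mul_one] at h1
    rw [← h1, ← Set.ncard_coe_finset]
    congr 1
    ext y
    rw [Finset.mem_coe, e]; rfl

theorem rootless_matrix {B : Matrix (Fin 24) (Fin 24) ℤ} (hsymm : B.IsSymm)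
    (hpos : ∀ x : Fin 24 → ℤ, x ≠ 0 → 0 < x ⬝ᵥ (B.mulVec x))
    (heven : ∀ x : Fin 24 → ℤ, (2 : ℤ) ∣ x ⬝ᵥ (B.mulVec x))
    (h2 : ∀ x : Fin 24 → ℤ, x ⬝ᵥ (B.mulVec x) ≠ 2) : Rootless (Matrix.toLinearMap₂' ℤ B) := by
  refine ⟨fun x y => ?_, fun x => ?_, fun x => ?_, fun x => ?_⟩ <;>
    simp only [Matrix.toLinearMap₂'_apply']
  · rw [Matrix.dotProduct_mulVec, ← Matrix.mulVec_transpose, hsymm.eq, dotProduct_comm]
  · exact hpos x
  · exact heven x
  · exact h2 x

theorem two_dvd_iff (x : Fin 24 → ℤ) : (∀ i, (2 : ℤ) ∣ x i) ↔ ∃ z, x = (2 : ℤ) • z :=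
  ⟨fun h => by choose z hz using h; exact ⟨z, funext hz⟩, fun ⟨z, hz⟩ i => ⟨z i, by rw [hz]; rfl⟩⟩

end Cfsg.Agent.Leech
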