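import Cfsg.Agent.Lib.Leech.Count
import Cfsg.Agent.Lib.Leech.Mod2
import Cfsg.Agent.Lib.Golay.M24

/-!
The group `Co0`: the action, construction of elements, monomial elements, the standard cross.
-/

set_option autoImplicit false

namespace Cfsg.Agent.Leech

open Cfsg Cfsg.Agent.PG Cfsg.Agent.Golay
open scoped Pointwise symmDiff

attribute [-simp] Fintype.sum_option

/-! ### The lattice modulo two -/

/-- the normalised inner product -/
noncomputable def βL : L →ₗ[ℤ] L →ₗ[ℤ] ℤ :=
  LinearMap.mk₂ ℤ (fun x y => dotInt (x : V) (y : V) / 8)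
    (fun x y z => by
      have := dot_mod x.2 z.2; have := dot_mod y.2 z.2
      rw [AddSubgroup.coe_add, dot_add_left]; omega)
    (fun c x y => by
      obtain ⟨k, hk⟩ := Int.dvd_of_emod_eq_zero (dot_mod x.2 y.2)
      rw [AddSubgroupClass.coe_zsmul, dot_smul_left, hk, smul_eq_mul, mul_left_comm]; simp)
    (fun x y z => by
      have := dot_mod x.2 y.2; have := dot_mod x.2 z.2
      rw [AddSubgroup.coe_add, dot_add_right]; omega)
    (fun c x y => by
      obtain ⟨k, hk⟩ := Int.dvd_of_emod_eq_zero (dot_mod x.2 y.2)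
      rw [AddSubgroupClass.coe_zsmul, dot_smul_right, hk, smul_eq_mul, mul_left_comm]; simp)

theorem βL_self (x : L) : 8 * βL x x = sqNorm (x : V) := by
  have := dot_mod x.2 x.2
  rw [sqNorm_eq_dot]
  show 8 * (dotInt (x : V) (x : V) / 8) = _
  omega

theorem rootless_L : Rootless βL := by
  refine ⟨fun x y => ?_, fun x hx => ?_, fun x => ?_, fun x => ?_⟩
  · show dotInt _ _ / 8 = dotInt _ _ / 8; rw [dot_comm]
  · have := βL_self x
    have := norm_ge x.2 fun e => hx (Subtype.ext e)
    omega
  · have := βL_self x; have := norm_mod x.2; omega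
  · have := βL_self x; have := norm_ne_16 x.2; omega

theorem classes_L (x : L) :
    (∃ y : L, sqNorm (y : V) ≤ 64 ∧ ∃ z, x - y = (2 : ℤ) • z) ∧ (sqNorm (x : V) = 64 →
      {y : L | sqNorm (y : V) = 64 ∧ ∃ z, x - y = (2 : ℤ) • z}.ncard = 48) := by
  have hf : Module.Finite ℤ L :=
    Module.Finite.of_injective leechLattice.subtype.toIntLinearMap Subtype.val_injective
  have hr : Module.finrank ℤ L ≤ 24 := by
    have := LinearMap.finrank_le_finrank_of_injective (f := leechLattice.subtype.toIntLinearMap)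
      Subtype.val_injective
    rwa [Module.finrank_fintype_fun_eq_card, card_pt] at this
  have e : ∀ (y : L) (n : ℤ), βL y y = n ↔ sqNorm (y : V) = 8 * n := fun y n => by
    have := βL_self y; omega
  have := rootless_L.classes hr
    (by simp only [e]; exact (ncard_L fun x => sqNorm x = 32).trans count32)
    (by simp only [e]; exact (ncard_L fun x => sqNorm x = 48).trans count48)
    (by simp only [e]; exact (ncard_L fun x => sqNorm x = 64).trans count64) x
  simp only [e] at this
  refine ⟨this.1.imp fun y hy => ⟨?_, hy.2⟩, this.2⟩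
  have := βL_self y; omega

/-! ### The action -/

theorem co_add (g : Co0) (v w : L) : g • (v + w) = g • v + g • w := g.2.1 v w
theorem co_norm (g : Co0) (v : L) : sqNorm ((g • v : L) : V) = sqNorm (v : V) := g.2.2 v

/-- an element of `Co0` as an additive map -/
def coHom (g : Co0) : L →+ L := AddMonoidHom.mk' (fun v => g • v) (co_add g)

theorem co_zero (g : Co0) : g • (0 : L) = 0 := (coHom g).map_zero
theorem co_neg (g : Co0) (v : L) : g • (-v) = -(g • v) := (coHom g).map_neg v
theorem co_sub (g : Co0) (v w : L) : g • (v - w) = g • v - g • w := (coHom g).map_sub v w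
theorem co_zsmul (g : Co0) (c : ℤ) (v : L) : g • (c • v) = c • (g • v) := (coHom g).map_zsmul c v

theorem co_dot (g : Co0) (v w : L) :
    dotInt ((g • v : L) : V) ((g • w : L) : V) = dotInt (v : V) (w : V) := by
  have h := co_norm g (v + w)
  rw [co_add, AddSubgroup.coe_add, AddSubgroup.coe_add, sqNorm_add, sqNorm_add, co_norm,
    co_norm] at h
  omega

theorem co_ext {g h : Co0} (e : ∀ v : L, g • v = h • v) : g = h :=
  Subtype.ext (Equiv.ext e)

theorem L_induction {S : AddSubgroup L} (h : ∀ k (hk : k < 37), (⟨gen k, gen_mem hk⟩ : L) ∈ S) :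
    S = ⊤ := by
  rw [eq_top_iff]
  intro x _
  obtain ⟨y, hy, e⟩ := L_le (S := S.map leechLattice.subtype) (fun k hk => ⟨_, h k hk, rfl⟩) x.2
  rwa [← (Subtype.ext e : y = x)]

theorem exists_co_of_hom (φ : L →+ L) (h : ∀ v, sqNorm ((φ v : L) : V) = sqNorm (v : V)) :
    ∃ g : Co0, ∀ v, g • v = φ v := by
  have hi : Function.Injective φ := (injective_iff_map_eq_zero φ).2 fun v hv =>
    Subtype.ext (sqNorm_eq_zero (by rw [← h, hv]; simp [sqNorm]))
  have hs : Function.Surjective φ := by
    rw [← AddMonoidHom.range_eq_top]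
    refine L_induction fun k hk => ?_
    have := ((finite_normL 32).injOn_iff_bijOn_of_mapsTo (f := φ)
      (fun v hv => (h v).trans hv)).1 hi.injOn
    obtain ⟨v, _, e⟩ := this.surjOn (show (⟨gen k, gen_mem hk⟩ : L) ∈ _ from (gen_facts k hk).2)
    exact ⟨v, e⟩
  exact ⟨⟨Equiv.ofBijective φ ⟨hi, hs⟩, φ.map_add, h⟩, fun _ => rfl⟩

theorem exists_co (f : V →+ V) {d : ℤ} (hd : d ≠ 0)
    (h1 : ∀ k < 37, ∃ y ∈ leechLattice, f (gen k) = d • y)
    (h2 : ∀ x, sqNorm (f x) = d ^ 2 * sqNorm x) :
    ∃ g : Co0, ∀ v : L, d • ((g • v : L) : V) = f v := by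
  have h3 := L_le (S := (leechLattice.map (DistribSMul.toAddMonoidHom V d)).comap f)
    fun k hk => (h1 k hk).imp fun y hy => ⟨hy.1, hy.2.symm⟩
  have h4 : ∀ v : L, ∃ y : L, d • (y : V) = f v := fun v => by
    obtain ⟨y, hy, e⟩ := h3 v.2
    exact ⟨⟨y, hy⟩, e⟩
  choose φ hφ using h4
  obtain ⟨g, hg⟩ := exists_co_of_hom (AddMonoidHom.mk' φ fun v w => Subtype.ext
    (smul_right_injective V hd (by
      simp only [AddSubgroup.coe_add, smul_add, hφ, map_add]))) fun v => by
    have := h2 v
    rw [← hφ, sqNorm_smul] at this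
    exact mul_left_cancel₀ (pow_ne_zero 2 hd) this
  exact ⟨g, fun v => by rw [hg]; exact hφ v⟩

instance finite_Co0 : Finite Co0 := by
  have := (finite_normL 32).to_subtype
  refine Finite.of_injective (fun (g : Co0) (k : Fin 37) =>
    (⟨g • ⟨gen k, gen_mem k.2⟩, (co_norm g _).trans (gen_facts k k.2).2⟩ :
      {x : L | sqNorm (x : V) = 32})) fun g h e => co_ext fun v => ?_
  have := L_induction (S := (coHom g).eqLocus (coHom h)) fun k hk =>
    congrArg Subtype.val (congrFun e ⟨k, hk⟩)
  exact (this ▸ AddSubgroup.mem_top v : v ∈ (coHom g).eqLocus (coHom h))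

/-! ### Monomial elements -/

theorem signedPerm_apply (σ : Equiv.Perm GolayPt) (c : Finset GolayPt) (x : V) (p : GolayPt) :
    signedPerm σ c x (σ p) = if σ p ∈ c then -x p else x p := by simp [signedPerm]

theorem signedPerm_mem {σ : Equiv.Perm GolayPt} (hσ : σ ∈ M24) {c : Finset GolayPt} (hc : Cw c)
    {x : V} (hx : x ∈ leechLattice) : signedPerm σ c x ∈ leechLattice := by
  obtain ⟨m, h0, h1, h2, h3⟩ := mem_L.1 hx
  let y : V := fun p => x (σ.symm p)
  have y1 : ∀ p, y p % 2 = m := fun p => h1 _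
  have y2 : ∑ p, y p = ∑ p, x p := Equiv.sum_comp σ.symm x
  have y3 : hb y = σ • hb x := by ext p; rw [mem_smul_iff, mem_hb, mem_hb]; rfl
  have y4 : Cw (hb y) := y3 ▸ h3.smul hσ
  have e : ∀ p, signedPerm σ c x p = y p - 2 * if p ∈ c then y p else 0 := fun p => by
    show (if p ∈ c then -y p else y p) = _
    split_ifs <;> ring
  refine InL.mem (m := m) ⟨h0, fun p => ?_, ?_, ?_⟩
  · have := y1 p; rw [e]; omega
  · have a1 := sum_mod4 h0 y1 c
    have a2 := Cw.even_inter hc y4
    have a3 := Cw.card_mod hc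
    simp only [e, Finset.sum_sub_distrib, ← Finset.mul_sum, Finset.sum_ite_mem, Finset.univ_inter]
    rcases h0 with rfl | rfl <;> omega
  · rcases h0 with rfl | rfl
    · refine cw_congr y4 fun p => ?_
      have := y1 p
      rw [mem_hb, mem_hb, e]; split_ifs <;> omega
    · refine cw_congr (y4.symmDiff hc) fun p => ?_
      have := y1 p
      rw [Finset.mem_symmDiff, mem_hb, mem_hb, e]
      split_ifs with h <;> simp only [h, not_true, not_false_iff, and_true, true_and, and_false,
        false_and, or_false, false_or] <;> omega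

theorem signedPerm_norm (σ : Equiv.Perm GolayPt) (c : Finset GolayPt) (x : V) :
    sqNorm (signedPerm σ c x) = sqNorm x := by
  unfold sqNorm
  rw [← Equiv.sum_comp σ]
  refine Finset.sum_congr rfl fun p _ => ?_
  rw [signedPerm_apply]; split_ifs <;> ring

theorem exists_mono {σ : Equiv.Perm GolayPt} (hσ : σ ∈ M24) {c : Finset GolayPt} (hc : Cw c) :
    ∃ g : Co0, ∀ v : L, ((g • v : L) : V) = signedPerm σ c v := by
  obtain ⟨g, hg⟩ := exists_co_of_hom (AddMonoidHom.mk'
    (fun v : L => (⟨signedPerm σ c v, signedPerm_mem hσ hc v.2⟩ : L)) fun v w => by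
      ext p
      simp only [signedPerm, AddSubgroup.coe_add, Pi.add_apply]
      split_ifs <;> ring) fun v => signedPerm_norm σ c v
  exact ⟨g, fun v => by rw [hg]; rfl⟩

/-- eight times a unit vector -/
def e8 (p : GolayPt) : L := ⟨Pi.single p 8, InL.mem (four_mem
  (fun q => by rw [Pi.single_apply]; split_ifs <;> rfl) (by simp))⟩

theorem coe_e8 (p : GolayPt) : ((e8 p : L) : V) = Pi.single p 8 := rfl

theorem mem_stdCross {v : L} : (v : V) ∈ stdCross ↔ ∃ p, v = e8 p ∨ v = -e8 p := by
  constructor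
  · rintro ⟨p, s, rfl | rfl, h⟩
    · exact ⟨p, Or.inl (Subtype.ext h)⟩
    · exact ⟨p, Or.inr (Subtype.ext (h.trans (Pi.single_neg p 8)))⟩
  · rintro ⟨p, rfl | rfl⟩
    · exact ⟨p, 8, Or.inl rfl, rfl⟩
    · exact ⟨p, -8, Or.inr rfl, (Pi.single_neg p 8).symm⟩

theorem eight_smul (v : L) : (8 : ℤ) • v = ∑ p, (v : V) p • e8 p := by
  ext q
  simp [coe_e8, Finset.sum_apply, Pi.single_apply, mul_comm]

/-- `g` maps the standard cross into itself -/
def Mono (g : Co0) : Prop := ∀ v : L, (v : V) ∈ stdCross → ((g • v : L) : V) ∈ stdCross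

theorem e8_ne (p q : GolayPt) : e8 p ≠ -e8 q := by
  intro h
  have := congrFun (congrArg Subtype.val h) p
  simp only [coe_e8, AddSubgroup.coe_neg, Pi.neg_apply, Pi.single_apply, if_true] at this
  split_ifs at this <;> omega

theorem e8_inj {p q : GolayPt} (h : e8 p = e8 q) : p = q := by
  have := congrFun (congrArg Subtype.val h) p
  simp only [coe_e8, Pi.single_apply, if_true] at this
  by_contra hc
  rw [if_neg hc] at this; omega

theorem Mono.exists {g : Co0} (h : Mono g) :
    ∃ σ ∈ M24, ∃ c, Cw c ∧ ∀ v : L, ((g • v : L) : V) = signedPerm σ c v := by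
  classical
  have h1 : ∀ p, ∃ q, g • e8 p = e8 q ∨ g • e8 p = -e8 q := fun p =>
    mem_stdCross.1 (h _ (mem_stdCross.2 ⟨p, Or.inl rfl⟩))
  choose τ hτ using h1
  have hi : Function.Injective τ := by
    intro p q e
    have a := hτ p
    have b := hτ q
    rw [← e] at b
    rcases a with a | a <;> rcases b with b | b
    · exact e8_inj (MulAction.injective g (a.trans b.symm))
    · exact absurd (MulAction.injective g (a.trans (by rw [co_neg, b, neg_neg] : _ = g • -e8 q)))
        (e8_ne p q)
    · exact absurd (MulAction.injective g (a.trans (by rw [co_neg, b] : _ = g • -e8 q)))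
        (e8_ne p q)
    · exact e8_inj (MulAction.injective g (a.trans b.symm))
  let σ : Equiv.Perm GolayPt := Equiv.ofBijective τ (Finite.injective_iff_bijective.1 hi)
  let c : Finset GolayPt := Finset.univ.filter fun q => g • e8 (σ.symm q) ≠ e8 q
  have key : ∀ v : L, ((g • v : L) : V) = signedPerm σ c v := by
    intro v
    funext q
    obtain ⟨q, rfl⟩ := σ.surjective q
    have e1 : (8 : ℤ) • (g • v) = ∑ p, (v : V) p • (g • e8 p) := by
      rw [← co_zsmul, eight_smul]
      refine (map_sum (coHom g) _ _).trans (Finset.sum_congr rfl fun p _ => co_zsmul g _ _)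
    have e2 := congrFun (congrArg Subtype.val e1) (σ q)
    rw [AddSubgroup.val_finsetSum, Finset.sum_apply, Finset.sum_eq_single q (fun p _ hp => by
      have : σ q ≠ τ p := fun e => hp (hi e).symm
      rcases hτ p with a | a <;> simp [a, coe_e8, this]) (by simp)] at e2
    rw [signedPerm_apply]
    have e3 : σ q ∈ c ↔ g • e8 q ≠ e8 (τ q) := by
      simp only [c, Finset.mem_filter, Finset.mem_univ, true_and, Equiv.symm_apply_apply]; rfl
    have e4 : σ q = τ q := rfl
    rcases hτ q with a | a
    · rw [if_neg (by rw [e3]; exact fun b => b a)]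
      rw [a] at e2
      simp [coe_e8, e4] at e2 ⊢
      omega
    · rw [if_pos (by rw [e3, a]; exact (e8_ne _ _).symm)]
      rw [a] at e2
      simp [coe_e8, e4] at e2 ⊢
      omega
  refine ⟨σ, mem_M24_of fun s hs => ?_, c, ?_, key⟩
  · have a := (g • (⟨two s, (two_inL hs).mem⟩ : L)).2
    rw [key] at a
    obtain ⟨m, hm⟩ := mem_L.1 a
    refine cw_congr hm.cw fun p => ?_
    obtain ⟨p, rfl⟩ := σ.surjective p
    rw [apply_mem_smul, mem_hb, signedPerm_apply]
    show _ ↔ 2 ≤ (if _ then -two s p else two s p) % 4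
    unfold two
    split_ifs with b1 b2 b2 <;> simp [b2]
  · have a := (g • (⟨gen 36, gen36_inL.mem⟩ : L)).2
    rw [key] at a
    obtain ⟨m, hm⟩ := mem_L.1 a
    refine cw_congr hm.cw fun p => ?_
    obtain ⟨p, rfl⟩ := σ.surjective p
    rw [mem_hb, signedPerm_apply]
    have : ∀ p, gen 36 p % 4 = 1 ∧ (-(gen 36 p)) % 4 = 3 := by decide
    show _ ↔ 2 ≤ (if _ then -(gen 36 p) else gen 36 p) % 4
    split_ifs with b1
    · rw [(this p).2]; simp [b1]
    · rw [(this p).1]; simp [b1]

theorem signedPerm_single (σ : Equiv.Perm GolayPt) (c : Finset GolayPt) (p : GolayPt) (s : ℤ) :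
    signedPerm σ c (Pi.single p s) = Pi.single (σ p) (if σ p ∈ c then -s else s) := by
  funext q
  obtain ⟨q, rfl⟩ := σ.surjective q
  rw [signedPerm_apply]
  by_cases h : q = p
  · subst h; simp
  · simp [h]

theorem mono_of {g : Co0} {σ : Equiv.Perm GolayPt} {c : Finset GolayPt}
    (h : ∀ v : L, ((g • v : L) : V) = signedPerm σ c v) : Mono g := by
  rintro v ⟨p, s, hs, e⟩
  rw [h, e, signedPerm_single]
  exact ⟨σ p, _, by split_ifs <;> omega, rfl⟩

theorem card_mono : Nat.card {g : Co0 // Mono g} = 4096 * 244823040 := by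
  have h1 : ∀ q : M24 × {c // Cw c}, ∃ g : Co0, ∀ v : L,
      ((g • v : L) : V) = signedPerm q.1 q.2 v := fun q => exists_mono q.1.2 q.2.2
  choose f hf using h1
  have hb : Function.Bijective fun q => (⟨f q, mono_of (hf q)⟩ : {g : Co0 // Mono g}) := by
    constructor
    · intro q q' e
      have e1 : f q = f q' := congrArg Subtype.val e
      have e2 : ∀ p, (Pi.single (q.1.1 p) (if q.1.1 p ∈ q.2.1 then -8 else 8) : V) =
          Pi.single (q'.1.1 p) (if q'.1.1 p ∈ q'.2.1 then -8 else 8) := fun p => by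
        rw [← signedPerm_single, ← signedPerm_single]
        exact (hf q (e8 p)).symm.trans (e1 ▸ hf q' (e8 p))
      have e3 : ∀ p, q.1.1 p = q'.1.1 p := fun p => by
        by_contra hc
        have := congrFun (e2 p) (q.1.1 p)
        rw [Pi.single_eq_same, Pi.single_eq_of_ne hc] at this
        split_ifs at this <;> omega
      refine Prod.ext (Subtype.ext (Equiv.ext e3)) (Subtype.ext (Finset.ext fun p => ?_))
      obtain ⟨p, rfl⟩ := q.1.1.surjective p
      have := congrFun (e2 p) (q.1.1 p)
      rw [← e3, Pi.single_eq_same, Pi.single_eq_same] at this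
      split_ifs at this with a b b <;> first | omega | simp [a, b]
    · rintro ⟨g, hg⟩
      obtain ⟨σ, hσ, c, hc, h⟩ := hg.exists
      exact ⟨(⟨σ, hσ⟩, ⟨c, hc⟩), Subtype.ext (co_ext fun v => Subtype.ext (by rw [hf, h]))⟩
  rw [← Nat.card_eq_of_bijective _ hb, Nat.card_prod, card_M24, mul_comm]
  congr 1
  exact ncard_cw_all

/-- the standard cross is the cross through each of its members -/
theorem cross_e8 {v : L} (p : GolayPt) :
    (v : V) ∈ stdCross ↔ sqNorm (v : V) = 64 ∧ ∃ z : L, v - e8 p = (2 : ℤ) • z := by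
  constructor
  · intro h
    have a : ∀ q (s : ℤ), s % 8 = 4 → (Pi.single q s - Pi.single p 4 : V) ∈ leechLattice :=
      fun q s hs => InL.mem (four_mem (fun r => by
        simp only [Pi.sub_apply, Pi.single_apply]; split_ifs <;> omega) (by
        simp [Finset.sum_sub_distrib]; omega))
    obtain ⟨q, s, hs, e⟩ := h
    refine ⟨by rw [e, sqNorm_eq_dot, dot_single, Pi.single_eq_same]; rcases hs with rfl | rfl <;> rfl,
      ⟨_, a q (s / 2) (by omega)⟩, Subtype.ext (funext fun r => ?_)⟩
    simp only [AddSubgroup.coe_sub, e, coe_e8, AddSubgroupClass.coe_zsmul, Pi.smul_apply,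
      Pi.sub_apply, Pi.single_apply, smul_eq_mul]
    split_ifs <;> omega
  · rintro ⟨h1, z, hz⟩
    let y : V := (z : V) + Pi.single p 4
    have e : (v : V) = (2 : ℤ) • y := by
      have := congrArg Subtype.val hz
      funext r
      have := congrFun this r
      simp only [AddSubgroup.coe_sub, coe_e8, AddSubgroupClass.coe_zsmul, Pi.smul_apply,
        Pi.sub_apply, Pi.single_apply, smul_eq_mul, y, Pi.add_apply] at this ⊢
      split_ifs at this ⊢ <;> omega
    rw [e, sqNorm_smul] at h1
    obtain ⟨m, h0, a1, a2, a3⟩ := mem_L.1 z.2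
    have b0 : ∀ r, y r % 4 = (z : V) r % 4 := fun r => by
      simp only [y, Pi.add_apply, Pi.single_apply]; split_ifs <;> omega
    have b1 : ∀ r, y r % 2 = m := fun r => by have := a1 r; have := b0 r; omega
    rcases h0 with rfl | rfl
    · have b2 : hb y = hb z := by ext r; rw [mem_hb, mem_hb, b0]
      have b3 := hb_norm y b1
      have b4 := a3.card'
      rw [← b2] at b4
      have b5 : hb y = ∅ := Finset.card_eq_zero.1 (by omega)
      have b6 : ∀ r, y r % 4 = 0 := fun r => by
        have c1 := b1 r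
        have c2 : ¬ 2 ≤ y r % 4 := by rw [← mem_hb, b5]; simp
        omega
      obtain ⟨q, hq⟩ : ∃ q, y q ≠ 0 := by
        by_contra hc
        push Not at hc
        simp [sqNorm, hc] at h1
      have b7 := sq_le_sqNorm y q
      have b8 : y q = 4 ∨ y q = -4 := by
        have := b6 q
        have : -4 ≤ y q ∧ y q ≤ 4 := by constructor <;> nlinarith
        omega
      refine ⟨q, 2 * y q, by omega, ?_⟩
      rw [e]
      funext r
      by_cases hr : r = q
      · subst hr; simp
      · have c1 : y q ^ 2 + y r ^ 2 ≤ sqNorm y := by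
          rw [← Finset.sum_pair (f := fun r => y r ^ 2) (Ne.symm hr)]
          exact Finset.sum_le_sum_of_subset_of_nonneg (Finset.subset_univ _)
            fun _ _ _ => sq_nonneg _
        have c2 : y r = 0 := by rcases b8 with c | c <;> rw [c] at c1 <;> nlinarith
        simp [hr, c2]
    · have := odd_norm b1; omega

theorem mono_of_e8 {g : Co0} {p q : GolayPt} (h : g • e8 p = e8 q) : Mono g := by
  intro v hv
  obtain ⟨h1, z, hz⟩ := (cross_e8 p).1 hv
  exact (cross_e8 q).2 ⟨(co_norm g v).trans h1, g • z, by rw [← h, ← co_sub, hz, co_zsmul]⟩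

/-- the monomial subgroup -/
def NN : Subgroup Co0 := MulAction.stabilizer Co0 {v : L | (v : V) ∈ stdCross}

theorem mem_NN {g : Co0} : g ∈ NN ↔ Mono g := by
  have hf : {v : L | (v : V) ∈ stdCross}.Finite :=
    (finite_normL 64).subset fun v hv => ((cross_e8 (pt 0)).1 hv).1
  rw [NN, MulAction.mem_stabilizer_set_iff_smul_set_subset hf]
  exact ⟨fun h v hv => h ⟨v, hv, rfl⟩, fun h _ ⟨v, hv, e⟩ => e ▸ h v hv⟩

theorem card_NN : Nat.card NN = 4096 * 244823040 :=
  (Nat.card_congr (Equiv.subtypeEquivRight fun _ => mem_NN)).trans card_mono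

end Cfsg.Agent.Leech
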