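import Cfsg.Agent.Lib.Leech.L3.Lay

/-!
Standard positions of the configurations of McLaughlin and Higman–Sims, and orders of stabilisers.
-/

set_option autoImplicit false

namespace Cfsg.Agent.Leech.L3

open Cfsg Cfsg.Agent.PG Cfsg.Agent.Golay Cfsg.Agent.Leech Equiv MulAction
open Cfsg.Agent.Leech.M (U W8 u0 nU nW8 nu0 sum_std trans48 sub_iff)
open scoped Pointwise

theorem set275 {u : L} (hu : sqNorm (u : V) = 48) (v : L) :
    {x : L | sqNorm (x : V) = 32 ∧ sqNorm ((u : V) - (x : V)) = 32 ∧ dotInt (v : V) (x : V) = 16} =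
      FL [(u, 24), (v, 16)] := by
  ext x
  rw [mem_FL2]
  exact and_congr_right fun h => and_congr_left fun _ => sub_iff hu h

theorem std3 {u v x v0 x0 : L} {a b : ℤ} (h : ∀ x ∈ FL [(mkL u0, a), (v0, b)],
    ∃ g : Co0, (∀ b ∈ [mkL u0, v0], g • b = b) ∧ g • x0 = x)
    (hk : ∃ k : Co0, k • mkL u0 = u ∧ k • v0 = v) (hx : x ∈ FL [(u, a), (v, b)]) :
    ∃ k : Co0, k • mkL u0 = u ∧ k • v0 = v ∧ k • x0 = x := by
  obtain ⟨k, rfl, rfl⟩ := hk
  obtain ⟨g, h1, h2⟩ := std_ext h k hx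
  exact ⟨g, h1 _ (by simp), h1 _ (by simp), h2⟩

theorem hs_std {u y : L} (hu : sqNorm (u : V) = 48) (hy : y ∈ FL [(u, 16)]) :
    ∃ k : Co0, k • mkL u0 = u ∧ k • mkL y1 = y := by
  obtain ⟨k, rfl⟩ := trans48 hu
  obtain ⟨g, h1, h2⟩ := std_ext tr11178 k hy
  exact ⟨g, h1 _ (by simp), h2⟩

theorem hs_std' {v w : L} (hv : sqNorm (v : V) = 48) (hw : sqNorm (w : V) = 48)
    (h : dotInt (v : V) (w : V) = -32) : ∃ k : Co0, k • mkL u0 = v ∧ k • mkL y1 = v + w :=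
  hs_std hv (mem_FL1.2 ⟨by rw [AddSubgroup.coe_add, sqNorm_add, hv, hw, h]; rfl,
    by rw [AddSubgroup.coe_add, dot_add_right, ← sqNorm_eq_dot, hv, h]; rfl⟩)

theorem set_add (v w : L) (a b c : ℤ) (h : a + b = c) :
    {x : L | sqNorm (x : V) = 32 ∧ dotInt (v : V) (x : V) = a ∧ dotInt (w : V) (x : V) = b} =
      FL [(v, a), (v + w, c)] := by
  ext x
  rw [mem_FL2, AddSubgroup.coe_add, dot_add_left, Set.mem_ofPred_eq]
  omega

theorem set_add' (v w : L) (a b c : ℤ) (h : a + b = c) :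
    {x : L | sqNorm (x : V) = 32 ∧ dotInt (v : V) (x : V) = a ∧ dotInt (w : V) (x : V) = b} =
      FL [(v + w, c), (v, a)] := by
  ext x
  rw [mem_FL2, AddSubgroup.coe_add, dot_add_left, Set.mem_ofPred_eq]
  omega

theorem set_neg (u : L) (a : ℤ) :
    {x : L | sqNorm (x : V) = 32 ∧ dotInt (u : V) (x : V) = -a} = FL [(-u, a)] := by
  ext x
  rw [mem_FL1, AddSubgroup.coe_neg, dot_neg_left, Set.mem_ofPred_eq]
  omega

theorem fix_of_add {g : Co0} {v w : L} (h1 : g • v = v) (h2 : g • (v + w) = v + w) : g • w = w := by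
  rwa [co_add, h1, add_right_inj] at h2

theorem mem_FL3' {u v w x : L} {a b c : ℤ} : x ∈ FL [(u, a), (v, b), (w, c)] ↔
    x ∈ FL [(u, a), (v, b)] ∧ dotInt (w : V) (x : V) = c := by
  rw [mem_FL3, mem_FL2]; tauto

theorem mem_FL2' {u w x : L} {a c : ℤ} : x ∈ FL [(u, a), (w, c)] ↔
    x ∈ FL [(u, a)] ∧ dotInt (w : V) (x : V) = c := by
  rw [mem_FL2, mem_FL1]; tauto

theorem card3 {v0 x0 : L} {a b : ℤ} (h : ∀ x ∈ FL [(mkL u0, a), (v0, b)],
    ∃ g : Co0, (∀ b ∈ [mkL u0, v0], g • b = b) ∧ g • x0 = x) (hx : x0 ∈ FL [(mkL u0, a), (v0, b)]) :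
    Nat.card ↥(stabilizer Co0 (mkL u0) ⊓ stabilizer Co0 v0) = (FL [(mkL u0, a), (v0, b)]).ncard *
      Nat.card ↥(stabilizer Co0 (mkL u0) ⊓ stabilizer Co0 v0 ⊓ stabilizer Co0 x0) :=
  card_of_trans hx (fun g hg => by simpa using hg) fun x hx =>
    (h x hx).imp fun g hg => ⟨by simpa using hg.1, hg.2⟩

theorem card_U43 : Nat.card ↥(stabilizer Co0 (mkL u0) ⊓ stabilizer Co0 (mkL U) ⊓
    stabilizer Co0 (mkL x0)) = 3265920 := by
  have := card3 tr275 mem275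
  rw [cnt275, M.stab_u0U, M.card_McL, ← M.stab_u0U] at this
  omega

theorem card_HS : Nat.card ↥(stabilizer Co0 (mkL u0) ⊓ stabilizer Co0 (mkL y1)) = 44352000 := by
  have := card_of_trans (H := stabilizer Co0 (mkL u0)) mem11178 (fun g hg => by simpa using hg)
    fun x hx => (tr11178 x hx).imp fun g hg => ⟨by simpa using hg.1, hg.2⟩
  rw [cnt11178, M.card_Co3] at this
  omega

theorem card_U35 : Nat.card ↥(stabilizer Co0 (mkL u0) ⊓ stabilizer Co0 (mkL y1) ⊓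
    stabilizer Co0 (mkL x3)) = 126000 := by
  have := card3 tr352 mem352
  rw [cnt352, card_HS] at this
  omega

/-- rank three: the classes of a vector -/
theorem rank3 {u v x y v0 x0 a1 a2 : L} {a b c1 c2 : ℤ} {k : Co0}
    (h : ∀ x ∈ FL [(mkL u0, a), (v0, b)], ∃ r ∈ [x0, a1, a2],
      ∃ g : Co0, (∀ b ∈ [mkL u0, v0, x0], g • b = b) ∧ g • r = x)
    (h0 : sqNorm (x0 : V) = 32) (h1 : dotInt (x0 : V) (a1 : V) = c1)
    (h2 : dotInt (x0 : V) (a2 : V) = c2) (hu : k • mkL u0 = u) (hv : k • v0 = v) (hx : k • x0 = x)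
    (hy : y ∈ FL [(u, a), (v, b)]) (hne : y ≠ x) :
    dotInt (x : V) (y : V) = c1 ∨ dotInt (x : V) (y : V) = c2 := by
  subst hu hv hx
  obtain ⟨r, hr, e⟩ := dot_cases (x0 := x0) (by simp) h k hy
  simp only [List.mem_cons, List.not_mem_nil, or_false] at hr
  rcases hr with rfl | rfl | rfl
  · rw [← sqNorm_eq_dot, h0] at e
    exact absurd (eq_of_dot ((co_norm _ _).trans h0) hy.1 e) hne
  · exact Or.inl (e.trans h1)
  · exact Or.inr (e.trans h2)

theorem ne_of_dot {x y : L} (hx : sqNorm (x : V) = 32) (h : dotInt (x : V) (y : V) = 16) :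
    y ≠ x := by
  rintro rfl
  rw [← sqNorm_eq_dot, hx] at h
  omega

end Cfsg.Agent.Leech.L3
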