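import Cfsg.Agent.Lib.Leech.Basic

/-!
Counting lattice vectors of a given norm with coordinates in a given list, by generating functions
evaluated at a large power of two.
-/

set_option autoImplicit false
set_option exponentiation.threshold 300

namespace Cfsg.Agent.Leech

open Cfsg Cfsg.Agent.PG Cfsg.Agent.Golay

attribute [-simp] Fintype.sum_option

theorem digit_sum {Y : Type*} (s : Finset Y) (w : Y → ℕ) (b t : ℕ) (hb : s.card < b) :
    (∑ y ∈ s, b ^ w y) / b ^ t % b = (s.filter fun y => w y = t).card := by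
  have hb0 : 0 < b := by omega
  have e : ∑ y ∈ s, b ^ w y = (∑ y ∈ s, if w y < t then b ^ w y else 0) +
      b ^ t * ((s.filter fun y => w y = t).card +
        b * ∑ y ∈ s, if t < w y then b ^ (w y - t - 1) else 0) := by
    rw [Finset.card_filter, Finset.mul_sum, ← Finset.sum_add_distrib, Finset.mul_sum,
      ← Finset.sum_add_distrib]
    refine Finset.sum_congr rfl fun y _ => ?_
    rcases lt_trichotomy (w y) t with h | h | h
    · rw [if_pos h, if_neg (by omega), if_neg (by omega)]; simp
    · rw [if_neg (by omega), if_pos h, if_neg (by omega), h]; simp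
    · rw [if_neg (by omega), if_neg (by omega), if_pos h, zero_add, zero_add, ← pow_succ',
        ← pow_add]
      congr 1; omega
  have h1 : (∑ y ∈ s, if w y < t then b ^ w y else 0) < b ^ t := by
    cases t with
    | zero => simp
    | succ t =>
      have : (∑ y ∈ s, if w y < t + 1 then b ^ w y else 0) ≤ s.card • b ^ t :=
        Finset.sum_le_card_nsmul _ _ _ fun y _ => by
          split_ifs with h
          · exact Nat.pow_le_pow_right hb0 (by omega)
          · omega
      rw [smul_eq_mul] at this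
      rw [pow_succ']
      exact this.trans_lt (Nat.mul_lt_mul_of_pos_right hb (by positivity))
  rw [e, Nat.add_mul_div_left _ _ (by positivity), Nat.div_eq_of_lt h1, zero_add,
    Nat.add_mul_mod_self_left, Nat.mod_eq_of_lt ((Finset.card_filter_le _ _).trans_lt hb)]

/-- `a * E ^ k` truncated by the mask `M` -/
noncomputable def pwA (E M k : ℕ) : ℕ → ℕ :=
  Nat.rec (motive := fun _ => ℕ → ℕ) (fun a => a)
    (fun _ ih a => force (Nat.land (Nat.mul a E) M) ih) k

theorem pwA_spec (E T k a : ℕ) : pwA E (2 ^ T - 1) k a % 2 ^ T = a * E ^ k % 2 ^ T := by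
  induction k generalizing a with
  | zero => show a % _ = _; simp
  | succ k ih =>
    show force ((a * E) &&& (2 ^ T - 1)) (pwA E (2 ^ T - 1) k) % _ = _
    rw [force_eq, ih, Nat.and_two_pow_sub_one_eq_mod, Nat.mod_mul_mod, pow_succ']
    ring_nf

/-- a digit in base `2 ^ 100` -/
def digit (P t : ℕ) : ℕ := Nat.mod (Nat.shiftRight P (Nat.mul 100 t)) (Nat.pow 2 100)

theorem digit_eq {P Q T t : ℕ} (h : P % 2 ^ T = Q % 2 ^ T) (ht : 100 * t + 100 ≤ T) :
    digit P t = Q / (2 ^ 100) ^ t % 2 ^ 100 := by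
  show (P >>> (100 * t)) % 2 ^ 100 = _
  rw [← pow_mul, ← Nat.shiftRight_eq_div_pow]
  apply Nat.eq_of_testBit_eq
  intro j
  rw [Nat.testBit_mod_two_pow, Nat.testBit_mod_two_pow, Nat.testBit_shiftRight,
    Nat.testBit_shiftRight]
  by_cases hj : j < 100
  · have := congrArg (fun x => x.testBit (100 * t + j)) h
    simp only [Nat.testBit_mod_two_pow, show 100 * t + j < T by omega, decide_true,
      Bool.true_and] at this
    rw [this]
  · simp [hj]

/-- the weight of a coordinate -/
def wt (s : ℤ) : ℕ := 256 * s.natAbs ^ 2 + (s % 8).toNat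

/-- the generating function of a coordinate -/
def poly (S : List ℤ) (r : ℤ) : ℕ :=
  ((S.filter fun s => s % 4 = r).map fun s => Nat.shiftLeft 1 (100 * wt s)).sum

/-- the number of vectors with given parity and code word weight -/
noncomputable def cntG (S : List ℤ) (n m k : ℕ) : ℕ :=
  force (Nat.sub (Nat.shiftLeft 1 (25600 * (n + 1))) 1) fun M =>
    force (poly S m) fun E => force (poly S (m + 2)) fun O =>
      force (pwA E M (24 - k) (pwA O M k 1)) fun P =>
        ((List.range 22).map fun j => digit P (256 * n + 8 * j + 4 * m)).sum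

/-- the number of vectors with given parity -/
noncomputable def cntM (S : List ℤ) (n m : ℕ) : ℕ :=
  cntG S n m 0 + 759 * cntG S n m 8 + 2576 * cntG S n m 12 + 759 * cntG S n m 16 + cntG S n m 24

theorem sum_cw (g : ℕ → ℕ) : ∑ k ∈ Finset.range 4096, g (pc (enc k)) =
    g 0 + 759 * g 8 + 2576 * g 12 + 759 * g 16 + g 24 := by
  have hm : ∀ k ∈ Finset.range 4096, pc (enc k) ∈ ({0, 8, 12, 16, 24} : Finset ℕ) := by
    intro k _
    have := (cw_enc k).card'
    rw [card_ofMask] at this
    simpa using this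
  rw [← Finset.sum_fiberwise_of_maps_to hm]
  have h : ∀ j, ∑ k ∈ Finset.range 4096 with pc (enc k) = j, g (pc (enc k)) =
      cntN 4096 (fun k => Nat.beq (pc (enc k)) j) * g j := by
    intro j
    rw [Finset.sum_congr rfl (g := fun _ => g j) fun k hk => by rw [(Finset.mem_filter.1 hk).2],
      Finset.sum_const, smul_eq_mul, cntN_eq]
    simp only [Nat.beq_eq]
  have c0 : cntN 4096 (fun k => Nat.beq (pc (enc k)) 0) = 1 := by decide +kernel
  have c8 : cntN 4096 (fun k => Nat.beq (pc (enc k)) 8) = 759 := by decide +kernel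
  have c12 : cntN 4096 (fun k => Nat.beq (pc (enc k)) 12) = 2576 := by decide +kernel
  have c16 : cntN 4096 (fun k => Nat.beq (pc (enc k)) 16) = 759 := by decide +kernel
  have c24 : cntN 4096 (fun k => Nat.beq (pc (enc k)) 24) = 1 := by decide +kernel
  rw [Finset.sum_insert (by decide), Finset.sum_insert (by decide), Finset.sum_insert (by decide),
    Finset.sum_insert (by decide), Finset.sum_singleton, h, h, h, h, h, c0, c8, c12, c16, c24]
  ring

/-- vectors with prescribed residues modulo 4 -/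
noncomputable def box {α : Type} [Fintype α] [DecidableEq α] (S : List ℤ) (m : ℤ) (c : Finset α) :
    Finset (α → ℤ) :=
  Fintype.piFinset fun p => (S.filter fun s => s % 4 = if p ∈ c then m + 2 else m).toFinset

theorem wt_sum {α : Type} [Fintype α] (hα : Fintype.card α = 24) (x : α → ℤ) : ∃ R : ℕ, ∑ p, wt (x p) = 256 * (sqNorm x).toNat + R ∧ R ≤ 168 ∧
    (R : ℤ) % 8 = (∑ p, x p) % 8 := by
  refine ⟨∑ p, (x p % 8).toNat, ?_, ?_, ?_⟩
  · unfold wt
    rw [Finset.sum_add_distrib, ← Finset.mul_sum]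
    have : sqNorm x = ((∑ p, (x p).natAbs ^ 2 : ℕ) : ℤ) := by simp [sqNorm]
    rw [this, Int.toNat_natCast]
  · have := Finset.sum_le_card_nsmul Finset.univ (fun p => (x p % 8).toNat) 7 fun p _ => by omega
    simpa [hα] using this
  · have : (8 : ℤ) ∣ ∑ p, (x p - ((x p % 8).toNat : ℤ)) := Finset.dvd_sum fun p _ => by omega
    rw [Finset.sum_sub_distrib] at this
    push_cast
    omega

theorem card_box {α : Type} [Fintype α] [DecidableEq α] (hα : Fintype.card α = 24)
    {S : List ℤ} (hS : S.Nodup) (hl : S.length ≤ 17) (n m : ℕ) (hm : m ≤ 1) (c : Finset α) :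
    ((box S m c).filter fun x => sqNorm x = n ∧ (∑ p, x p) % 8 = 4 * m).card =
      cntG S n m c.card := by
  have hc : (box S m c).card < 2 ^ 100 := by
    unfold box
    rw [Fintype.card_piFinset]
    refine (Finset.prod_le_pow_card _ _ 17 fun p _ => ?_).trans_lt (by
      rw [Finset.card_univ, hα]; norm_num)
    exact (List.toFinset_card_le _).trans ((List.length_filter_le _ _).trans hl)
  have hp : ∀ r, poly S r = ∑ s ∈ (S.filter fun s => s % 4 = r).toFinset, (2 ^ 100) ^ wt s := by
    intro r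
    rw [List.sum_toFinset _ (hS.filter _)]
    unfold poly
    congr 1
    refine List.map_congr_left fun s _ => ?_
    show 1 <<< _ = _
    rw [Nat.one_shiftLeft, pow_mul]
  have hsum : ∑ x ∈ box S m c, (2 ^ 100) ^ (∑ p, wt (x p)) =
      1 * poly S (m + 2) ^ c.card * poly S m ^ (24 - c.card) := by
    unfold box
    simp only [← Finset.prod_pow_eq_pow_sum]
    rw [← Finset.prod_univ_sum _ (fun _ s => (2 ^ 100) ^ wt s)]
    have : ∀ p : α, ∑ s ∈ (S.filter fun s => s % 4 = if p ∈ c then (m : ℤ) + 2 else m).toFinset,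
        (2 ^ 100) ^ wt s = if p ∈ c then poly S (m + 2) else poly S m := by
      intro p; rw [← hp]; split_ifs <;> rfl
    rw [Finset.prod_congr rfl fun p _ => this p, Finset.prod_ite, Finset.prod_const,
      Finset.prod_const, one_mul]
    congr 2
    · simp
    · rw [← hα, ← Finset.card_compl]; congr 1; ext p; simp
  have hmaps : ∀ x ∈ (box S m c).filter fun x => sqNorm x = n ∧ (∑ p, x p) % 8 = 4 * m,
      (∑ p, wt (x p) - 256 * n) / 8 ∈ Finset.range 22 := by
    intro x hx
    obtain ⟨R, h1, h2, h3⟩ := wt_sum hα x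
    rw [Finset.mem_range, h1, (Finset.mem_filter.1 hx).2.1]
    omega
  rw [Finset.card_eq_sum_card_fiberwise hmaps]
  unfold cntG
  rw [force_eq, force_eq, force_eq, force_eq, ← List.sum_toFinset _ List.nodup_range,
    List.toFinset_range]
  refine Finset.sum_congr rfl fun j hj => ?_
  rw [Finset.mem_range] at hj
  have e : Nat.sub (Nat.shiftLeft 1 (25600 * (n + 1))) 1 = 2 ^ (25600 * (n + 1)) - 1 := by
    show 1 <<< _ - 1 = _
    rw [Nat.one_shiftLeft]
  rw [e, digit_eq (Q := ∑ x ∈ box S m c, (2 ^ 100) ^ (∑ p, wt (x p))) (T := 25600 * (n + 1)) _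
    (by omega), digit_sum _ _ _ _ hc, Finset.filter_filter]
  · refine congrArg Finset.card (Finset.filter_congr fun x _ => ?_)
    obtain ⟨R, h1, h2, h3⟩ := wt_sum hα x
    have : 0 ≤ sqNorm x := Finset.sum_nonneg fun _ _ => sq_nonneg _
    rw [h1]
    omega
  · rw [pwA_spec, ← Nat.mod_mul_mod, pwA_spec, Nat.mod_mul_mod, hsum]

theorem count_par {S : List ℤ} (hS : S.Nodup) (hl : S.length ≤ 17) (n m : ℕ) (hm : m ≤ 1) :
    {x : V | InL m x ∧ sqNorm x = n ∧ ∀ p, x p ∈ S}.ncard = cntM S n m := by
  classical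
  have e : {x : V | InL m x ∧ sqNorm x = n ∧ ∀ p, x p ∈ S} =
      ↑((Fintype.piFinset fun _ => S.toFinset).filter fun x : V => InL m x ∧ sqNorm x = n) := by
    ext x; simp; tauto
  have hmaps : ∀ x ∈ (Fintype.piFinset fun _ => S.toFinset).filter
      fun x : V => InL m x ∧ sqNorm x = n, toMask (hb x) % 4096 ∈ Finset.range 4096 :=
    fun x _ => Finset.mem_range.2 (Nat.mod_lt _ (by norm_num))
  rw [e, Set.ncard_coe_finset, Finset.card_eq_sum_card_fiberwise hmaps]
  unfold cntM
  rw [← sum_cw (cntG S n m)]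
  refine Finset.sum_congr rfl fun k hk => ?_
  rw [Finset.mem_range] at hk
  rw [← card_ofMask, ← card_box card_pt hS hl n m hm]
  congr 1
  ext x
  simp only [box, Finset.mem_filter, Fintype.mem_piFinset, List.mem_toFinset, List.mem_filter,
    decide_eq_true_eq]
  constructor
  · rintro ⟨⟨h1, h2, h3⟩, h4⟩
    obtain ⟨k', hk', e1⟩ := h2.cw.exists_enc
    have e2 : toMask (hb x) = enc k' := ofMask_inj (toMask_lt _) (enc_lt _) (by simp [e1])
    rw [e2, enc_mod', Nat.mod_eq_of_lt hk'] at h4
    subst h4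
    refine ⟨fun p => ⟨h1 p, ?_⟩, h3, h2.sum⟩
    have := h2.par p
    rw [e1]
    simp only [mem_hb]
    split_ifs <;> omega
  · rintro ⟨h1, h2, h3⟩
    have e1 : hb x = ofMask (enc k) := by
      ext p
      have := (h1 p).2
      rw [mem_hb]
      split_ifs at this with h4
      · simp only [h4, iff_true]; omega
      · simp only [h4, iff_false]; omega
    refine ⟨⟨fun p => (h1 p).1, ⟨by omega, fun p => ?_, h3, e1 ▸ cw_enc k⟩, h2⟩, ?_⟩
    · have := (h1 p).2
      split_ifs at this <;> omega
    · have e2 : toMask (hb x) = enc k := ofMask_inj (toMask_lt _) (enc_lt _) (by simp [e1])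
      rw [e2, enc_mod', Nat.mod_eq_of_lt hk]

theorem count_list {S : List ℤ} (hS : S.Nodup) (hl : S.length ≤ 17) (n : ℕ) :
    {x : V | x ∈ leechLattice ∧ sqNorm x = n ∧ ∀ p, x p ∈ S}.ncard = cntM S n 0 + cntM S n 1 := by
  rw [← count_par hS hl n 0 (by omega), ← count_par hS hl n 1 le_rfl, ← Set.ncard_union_eq _
    ((finite_norm n).subset fun x hx => hx.2.1) ((finite_norm n).subset fun x hx => hx.2.1)]
  · congr 1
    ext x
    simp only [Set.mem_ofPred_eq, Set.mem_union, mem_L]
    constructor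
    · rintro ⟨⟨m, h⟩, h1⟩
      rcases h.hm with rfl | rfl
      · exact Or.inl ⟨h, h1⟩
      · exact Or.inr ⟨h, h1⟩
    · rintro (⟨h, h1⟩ | ⟨h, h1⟩) <;> exact ⟨⟨_, h⟩, h1⟩
  · rw [Set.disjoint_left]
    intro x h1 h2
    have := h1.1.par (pt 0)
    have := h2.1.par (pt 0)
    omega

/-- all small integers -/
def S8 : List ℤ := [-8, -7, -6, -5, -4, -3, -2, -1, 0, 1, 2, 3, 4, 5, 6, 7, 8]

theorem count_all {n : ℕ} (hn : n ≤ 64) :
    {x : V | x ∈ leechLattice ∧ sqNorm x = n}.ncard = cntM S8 n 0 + cntM S8 n 1 := by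
  rw [← count_list (by decide) (by decide)]
  congr 1
  ext x
  refine and_congr_right fun _ => ⟨fun h => ⟨h, fun p => ?_⟩, fun h => h.1⟩
  have h1 := sq_le_sqNorm x p
  have h2 : -8 ≤ x p ∧ x p ≤ 8 := by
    have : (n : ℤ) ≤ 64 := by exact_mod_cast hn
    constructor <;> nlinarith
  simp only [S8, List.mem_cons]
  omega

theorem count32 : {x : V | x ∈ leechLattice ∧ sqNorm x = 32}.ncard = 196560 :=
  (count_all (n := 32) (by omega)).trans (by decide +kernel)

theorem count48 : {x : V | x ∈ leechLattice ∧ sqNorm x = 48}.ncard = 16773120 :=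
  (count_all (n := 48) (by omega)).trans (by decide +kernel)

theorem count64 : {x : V | x ∈ leechLattice ∧ sqNorm x = 64}.ncard = 398034000 :=
  (count_all (n := 64) (by omega)).trans (by decide +kernel)

theorem ncard_L (P : V → Prop) :
    {x : L | P x}.ncard = {x : V | x ∈ leechLattice ∧ P x}.ncard := by
  rw [← Set.ncard_image_of_injective _ Subtype.val_injective]
  congr 1
  ext x
  simp only [Set.mem_image, Set.mem_ofPred_eq, Subtype.exists, exists_and_right, exists_eq_right]
  exact ⟨fun ⟨h1, h2⟩ => ⟨h1, h2⟩, fun ⟨h1, h2⟩ => ⟨h1, h2⟩⟩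

end Cfsg.Agent.Leech
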