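import Cfsg.Agent.Lib.Leech.Layout
import Cfsg.Agent.Lib.Golay.Util

/-!
Families of minimal vectors with prescribed inner products; unions of orbits.
-/

set_option autoImplicit false

namespace Cfsg.Agent.Leech

open Cfsg Cfsg.Agent.PG Cfsg.Agent.Golay Equiv
open scoped Pointwise

/-- minimal vectors with prescribed inner products with lattice vectors -/
def FL (cs : List (L × ℤ)) : Set L :=
  {x | sqNorm (x : V) = 32 ∧ ∀ q ∈ cs, dotInt (q.1 : V) (x : V) = q.2}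

theorem fam_eq (cs : List (List ℤ × ℤ)) : fam cs = FL (cs.map fun q => (mkL q.1, q.2)) := by
  ext x; simp only [fam, FL, Set.mem_ofPred_eq, List.forall_mem_map]

theorem smul_mem_FL (g : Co0) (cs : List (L × ℤ)) (x : L) :
    g • x ∈ FL (cs.map fun q => (g • q.1, q.2)) ↔ x ∈ FL cs := by
  simp only [FL, Set.mem_ofPred_eq, List.forall_mem_map, co_norm, co_dot]

theorem smul_FL (g : Co0) (cs : List (L × ℤ)) :
    FL (cs.map fun q => (g • q.1, q.2)) = g • FL cs := by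
  ext x
  obtain ⟨x, rfl⟩ := MulAction.surjective g x
  rw [smul_mem_FL, Set.smul_mem_smul_set_iff]

theorem mem_FL0 {x : L} : x ∈ FL [] ↔ sqNorm (x : V) = 32 := by simp [FL]
theorem mem_FL1 {v x : L} {a : ℤ} :
    x ∈ FL [(v, a)] ↔ sqNorm (x : V) = 32 ∧ dotInt (v : V) (x : V) = a := by simp [FL]
theorem mem_FL2 {v w x : L} {a b : ℤ} : x ∈ FL [(v, a), (w, b)] ↔
    sqNorm (x : V) = 32 ∧ dotInt (v : V) (x : V) = a ∧ dotInt (w : V) (x : V) = b := by simp [FL]
theorem mem_FL3 {u v w x : L} {a b c : ℤ} : x ∈ FL [(u, a), (v, b), (w, c)] ↔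
    sqNorm (x : V) = 32 ∧ dotInt (u : V) (x : V) = a ∧ dotInt (v : V) (x : V) = b ∧
      dotInt (w : V) (x : V) = c := by simp [FL]

theorem ncard_FL1 (g : Co0) (v : L) (a : ℤ) : (FL [(g • v, a)]).ncard = (FL [(v, a)]).ncard := by
  rw [← Set.ncard_smul_set g (FL [(v, a)]), ← smul_FL]; rfl
theorem ncard_FL2 (g : Co0) (v w : L) (a b : ℤ) :
    (FL [(g • v, a), (g • w, b)]).ncard = (FL [(v, a), (w, b)]).ncard := by
  rw [← Set.ncard_smul_set g (FL [(v, a), (w, b)]), ← smul_FL]; rfl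
theorem ncard_FL3 (g : Co0) (u v w : L) (a b c : ℤ) :
    (FL [(g • u, a), (g • v, b), (g • w, c)]).ncard = (FL [(u, a), (v, b), (w, c)]).ncard := by
  rw [← Set.ncard_smul_set g (FL [(u, a), (v, b), (w, c)]), ← smul_FL]; rfl

theorem finite_FL (cs : List (L × ℤ)) : (FL cs).Finite := (finite_normL 32).subset fun _ h => h.1

/-- extension of a standard position by one more vector -/
theorem std_ext {cs : List (L × ℤ)} {x0 : L} {bs : List L}
    (h : ∀ x ∈ FL cs, ∃ g : Co0, (∀ b ∈ bs, g • b = b) ∧ g • x0 = x) (k : Co0) {x : L}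
    (hx : x ∈ FL (cs.map fun q => (k • q.1, q.2))) :
    ∃ g : Co0, (∀ b ∈ bs, g • b = k • b) ∧ g • x0 = x := by
  obtain ⟨x, rfl⟩ := MulAction.surjective k x
  obtain ⟨g, h1, h2⟩ := h x ((smul_mem_FL k cs x).1 hx)
  exact ⟨k * g, fun b hb => by rw [mul_smul, h1 b hb], by rw [mul_smul, h2]⟩

theorem quot_co {k k' : Co0} {a x y : L} (h : k • a = x) (h' : k' • a = y) :
    (k' * k⁻¹) • x = y := by rw [← h, ← h', mul_smul, inv_smul_smul]

/-- the orbit of a subgroup fixing the vectors of `cs` -/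
theorem orbit_eq_FL {H : Subgroup Co0} {cs : List (L × ℤ)} {y : L} (hy : y ∈ FL cs)
    (h1 : ∀ g ∈ H, ∀ q ∈ cs, g • q.1 = q.1) (h2 : ∀ x ∈ FL cs, ∃ g ∈ H, g • y = x) :
    {z | ∃ g ∈ H, g • y = z} = FL cs := by
  ext z
  refine ⟨?_, h2 z⟩
  rintro ⟨g, hg, rfl⟩
  have := (smul_mem_FL g cs y).2 hy
  rwa [List.map_congr_left (g := id) fun q hq => by rw [h1 g hg q hq]; rfl, List.map_id] at this

theorem orbit_eq_set (H : Subgroup Co0) (y : L) :
    MulAction.orbit H y = {z | ∃ g ∈ H, g • y = z} := by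
  ext z
  exact ⟨fun ⟨g, e⟩ => ⟨g, g.2, e⟩, fun ⟨g, hg, e⟩ => ⟨⟨g, hg⟩, e⟩⟩

theorem card_of_trans {H : Subgroup Co0} {cs : List (L × ℤ)} {y : L} (hy : y ∈ FL cs)
    (h1 : ∀ g ∈ H, ∀ q ∈ cs, g • q.1 = q.1) (h2 : ∀ x ∈ FL cs, ∃ g ∈ H, g • y = x) :
    Nat.card H = (FL cs).ncard * Nat.card ↥(H ⊓ MulAction.stabilizer Co0 y) := by
  rw [card_eq_orbit_mul' H y, orbit_eq_FL hy h1 h2]

theorem ncard_le_sum {α β : Type*} (rs : List β) (T : β → Set α) (f : β → ℕ)
    (hT : ∀ q ∈ rs, (T q).Finite ∧ (T q).ncard ≤ f q) {O : Set α}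
    (hO : ∀ x ∈ O, ∃ q ∈ rs, x ∈ T q) : O.ncard ≤ (rs.map f).sum := by
  induction rs generalizing O with
  | nil =>
    have : O = ∅ := Set.eq_empty_of_forall_notMem fun x hx => by simpa using hO x hx
    simp [this]
  | cons q rs ih =>
    have h1 := ih (fun q hq => hT q (List.mem_cons_of_mem _ hq)) (O := O \ T q) fun x hx => by
      obtain ⟨q', hq', h⟩ := hO x hx.1
      rcases List.mem_cons.1 hq' with rfl | hq'
      · exact absurd h hx.2
      · exact ⟨q', hq', h⟩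
    have h2 := hT q List.mem_cons_self
    have h3 := Set.ncard_le_ncard_sdiff_add_ncard O (T q) h2.1
    rw [List.map_cons, List.sum_cons]
    omega

/-- certificate: the orbits of the points `q.1` have sizes `q.2.2` and cover the family -/
noncomputable def unB (A : List Net) (P : List (List ℕ)) (B : ℕ) (cs : List (List ℤ × ℤ))
    (l t r : ℕ) (rs : List (ℕ × ℕ × ℕ)) : Bool :=
  andB (csB cs) (coverB A (kgens A t) r (rs.map fun q => q.1) (famM B P cs))

open Classical in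
theorem ncard_union {A : List Net} {P : List (List ℕ)} {B : ℕ} {H J : Subgroup Co0}
    (h : Lay A P B H) (hl : A.length ≤ 128) {t : ℕ}
    (acts : ∀ σ ∈ K A t, ∃ g ∈ J, Acts (X P) (bset B) g σ) {cs : List (List ℤ × ℤ)}
    (hf : Full P B cs) {l r : ℕ} {rs : List (ℕ × ℕ × ℕ)} (hu : unB A P B cs l t r rs = true)
    (ho : ∀ q ∈ rs, orbCardB A l t q.1 q.2.1 q.2.2 = true)
    (hs : (fam cs).ncard = (rs.map fun q => q.2.2).sum) {y : L}
    (hy : {z | ∃ g ∈ J, g • y = z} ⊆ fam cs) :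
    {z | ∃ g ∈ J, g • y = z}.ncard =
      (rs.map fun q => if ∃ g ∈ J, g • y = X P q.1 then q.2.2 else 0).sum := by
  unfold unB at hu
  rw [andB_eq, Bool.and_eq_true] at hu
  obtain ⟨N, hA⟩ := h.hA
  have key : ∀ p : L → Prop, (∀ g ∈ J, ∀ z, p (g • z) → p z) →
      {z | z ∈ fam cs ∧ p z}.ncard ≤ (rs.map fun q => if p (X P q.1) then q.2.2 else 0).sum := by
    intro p hp
    refine ncard_le_sum rs (fun q => if p (X P q.1) then X P '' {i | ∃ σ ∈ K A t, σ q.1 = i} else ∅)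
      _ (fun q hq => ?_) fun x hx => ?_
    · have h1 := orbCardB_spec hA (ho q hq)
      have h2 : {i | ∃ σ ∈ K A t, σ q.1 = i}.Finite := by
        have := finite_K hA t
        exact (Set.toFinite (K A t : Set (Perm ℕ))).image (fun σ => σ q.1)
      split_ifs
      · exact ⟨h2.image _, h1 ▸ Set.ncard_image_le h2⟩
      · simp
    · obtain ⟨hx1, hx2⟩ := hx
      rw [← h.image hu.1 hf] at hx1
      obtain ⟨i, hi, rfl⟩ := hx1
      obtain ⟨a, ha, σ, hσ, rfl⟩ := coverB_spec hA (kgens_mem hl t) hu.2 hi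
      obtain ⟨q, hq, rfl⟩ := List.mem_map.1 ha
      obtain ⟨g, hg, h2⟩ := acts σ hσ
      refine ⟨q, hq, ?_⟩
      rw [if_pos (hp g hg _ (by rwa [h2.2 _ ((h2.1 _).1 ((h.mem_famM hu.1).1 hi).1)]))]
      exact ⟨_, ⟨σ, hσ, rfl⟩, rfl⟩
  have a1 := key (fun z => ∃ g ∈ J, g • y = z) fun g hg z ⟨g', hg', e⟩ =>
    ⟨g⁻¹ * g', J.mul_mem (J.inv_mem hg) hg', by rw [mul_smul, e, inv_smul_smul]⟩
  have a2 : {z | z ∈ fam cs ∧ ¬ ∃ g ∈ J, g • y = z}.ncard ≤
      (rs.map fun q => if ¬ ∃ g ∈ J, g • y = X P q.1 then q.2.2 else 0).sum := by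
    convert key (fun z => ¬ ∃ g ∈ J, g • y = z) fun g hg z hz ⟨g', hg', e⟩ =>
      hz ⟨g * g', J.mul_mem hg hg', by rw [mul_smul, e]⟩
  have a3 : (rs.map fun q => if ∃ g ∈ J, g • y = X P q.1 then q.2.2 else 0).sum +
      (rs.map fun q => if ¬ ∃ g ∈ J, g • y = X P q.1 then q.2.2 else 0).sum =
      (rs.map fun q => q.2.2).sum := by
    rw [← List.sum_map_add]
    congr 1
    exact List.map_congr_left fun q _ => by split_ifs <;> simp_all
  have a4 := Set.ncard_inter_add_ncard_sdiff_eq_ncard (fam cs) {z | ∃ g ∈ J, g • y = z}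
    (finite_fam cs)
  have e1 : {z | z ∈ fam cs ∧ ∃ g ∈ J, g • y = z} = {z | ∃ g ∈ J, g • y = z} :=
    Set.inter_eq_right.2 hy
  have e2 : fam cs ∩ {z | ∃ g ∈ J, g • y = z} = {z | ∃ g ∈ J, g • y = z} := e1
  have e3 : fam cs \ {z | ∃ g ∈ J, g • y = z} = {z | z ∈ fam cs ∧ ¬ ∃ g ∈ J, g • y = z} := rfl
  rw [e1] at a1
  rw [e2, e3] at a4
  omega

theorem vec_single (l : List ℤ) (p : ℕ) (s : ℤ)
    (h : allN 24 (fun k => decide (nthD 0 l k = if k = p then s else 0)) = true) (hp : p < 24) :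
    vec l = Pi.single (pt p) s := by
  funext q
  have := of_decide_eq_true (allN_spec h _ (idx_lt q))
  rw [nthD_eq] at this
  rw [Pi.single_apply]
  refine this.trans (if_congr ⟨fun e => by rw [← e, pt_idx], fun e => by rw [e, idx_pt p hp]⟩
    rfl rfl)

/-- eight times a unit vector, as a list -/
def e8L (p : ℕ) : List ℤ := (List.range 24).map fun k => if k = p then 8 else 0

theorem mkL_e8 : ∀ p < 24, mkL (e8L p) = e8 (pt p) := fun p hp => Subtype.ext <| by
  have h : ∀ p < 24, andB (inB (e8L p))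
      (allN 24 (fun k => decide (nthD 0 (e8L p) k = if k = p then 8 else 0))) = true := by
    decide +kernel
  have := h p hp
  rw [andB_eq, Bool.and_eq_true] at this
  rw [coe_mkL this.1, vec_single _ p 8 this.2 hp]; rfl

theorem IsMat.mem_NN {g : Co0} {d : ℤ} {M : List (List ℤ)} (hg : IsMat g d M) {p q : ℕ}
    (hp : p < 24) (hq : q < 24) (h : mapsL d M (e8L p) (e8L q) = true) : g ∈ NN := by
  have := hg.maps h
  rw [mkL_e8 p hp, mkL_e8 q hq] at this
  exact Leech.mem_NN.2 (mono_of_e8 this)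

/-- sum of lists -/
theorem mkL_add {a b c : List ℤ} (h : andB (inB a) (andB (inB b) (andB (inB c)
    (allN 24 fun k => decide (nthD 0 a k + nthD 0 b k = nthD 0 c k)))) = true) :
    mkL a + mkL b = mkL c := by
  simp only [andB_eq, Bool.and_eq_true] at h
  apply Subtype.ext
  rw [AddSubgroup.coe_add, coe_mkL h.1, coe_mkL h.2.1, coe_mkL h.2.2.1]
  funext p
  have := of_decide_eq_true (allN_spec h.2.2.2 _ (idx_lt p))
  rwa [nthD_eq, nthD_eq, nthD_eq] at this

end Cfsg.Agent.Leech
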