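import Cfsg.Agent.Lib.Leech.M.Orb

/-!
The order of `Co0`, maximality of the monomial subgroup, transitivity on pairs of minimal vectors
and on vectors of norm 48.
-/

set_option autoImplicit false
set_option maxRecDepth 100000

namespace Cfsg.Agent.Leech.M

open Cfsg Cfsg.Agent.PG Cfsg.Agent.Golay Cfsg.Agent.Leech Equiv MulAction
open scoped Pointwise

theorem pair_std {k : ℤ} {w0 : L}
    (h : ∀ x ∈ FL [(mkL U, k)], ∃ g : Co0, (∀ b ∈ [mkL U], g • b = b) ∧ g • w0 = x) {v w : L}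
    (hv : sqNorm (v : V) = 32) (hw : sqNorm (w : V) = 32) (hd : dotInt (v : V) (w : V) = k) :
    ∃ g : Co0, g • mkL U = v ∧ g • w0 = w := by
  obtain ⟨k, rfl⟩ := min_trans hv
  obtain ⟨g, h1, h2⟩ := std_ext h k (x := w) (mem_FL1.2 ⟨hw, hd⟩)
  exact ⟨g, h1 _ List.mem_cons_self, h2⟩

theorem card_step {k : ℤ} {w0 : L} {n : ℕ}
    (h : ∀ x ∈ FL [(mkL U, k)], ∃ g : Co0, (∀ b ∈ [mkL U], g • b = b) ∧ g • w0 = x)
    (h1 : sqNorm (w0 : V) = 32) (h2 : dotInt (mkL U : V) (w0 : V) = k)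
    (h3 : (FL [(mkL U, k)]).ncard = n) : Nat.card (stabilizer Co0 (mkL U)) =
      n * Nat.card ↥(stabilizer Co0 (mkL U) ⊓ stabilizer Co0 w0) := by
  rw [← h3]
  exact card_of_trans (mem_FL1.2 ⟨h1, h2⟩) (fun g hg q hq => by
    rw [List.mem_singleton.1 hq]; exact hg) fun x hx =>
    (h x hx).imp fun g hg => ⟨hg.1 _ List.mem_cons_self, hg.2⟩

theorem card_top : Nat.card Co0 = 196560 * Nat.card (stabilizer Co0 (mkL U)) := by
  have := card_of_trans (H := ⊤) (cs := []) (y := mkL U) (mem_FL0.2 nU) (by simp)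
    fun x hx => (min_trans (mem_FL0.1 hx)).imp fun g hg => ⟨trivial, hg⟩
  rw [top_inf_eq, Subgroup.card_top, show FL [] = fam [] from (fam_eq []).symm, ncard_min] at this
  exact this

theorem UU2 : mkL U + mkL U2 = e8 (pt 0) :=
  (mkL_add (c := e8L 0) (by decide +kernel)).trans (mkL_e8 0 (by omega))

theorem S_le : stabilizer Co0 (mkL U) ⊓ stabilizer Co0 (mkL U2) ≤ NN := fun g hg =>
  mem_NN.2 (mono_of_e8 (p := pt 0) (q := pt 0) (by
    rw [← UU2, co_add, mem_stabilizer_iff.1 hg.1, mem_stabilizer_iff.1 hg.2]))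

open Classical in
theorem card_over {J : Subgroup Co0} (hJ : NN ≤ J) : Nat.card J =
    (1104 + ((if ∃ g ∈ J, g • mkL U = X P 2094 then 97152 else 0) +
      if ∃ g ∈ J, g • mkL U = X P 46 then 98304 else 0)) *
    ((2 + ((if ∃ g ∈ J ⊓ stabilizer Co0 (mkL U), g • mkL U2 = X P 0 then 924 else 0) +
      ((if ∃ g ∈ J ⊓ stabilizer Co0 (mkL U), g • mkL U2 = X P 2224 then 4928 else 0) +
      ((if ∃ g ∈ J ⊓ stabilizer Co0 (mkL U), g • mkL U2 = X P 2098 then 42240 else 0) +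
      if ∃ g ∈ J ⊓ stabilizer Co0 (mkL U), g • mkL U2 = X P 46 then 45056 else 0)))) *
    Nat.card ↥(stabilizer Co0 (mkL U) ⊓ stabilizer Co0 (mkL U2))) := by
  have a1 := ncard_union (J := J) lay hl
    (fun σ hσ => (actsN σ hσ).imp fun g hg => ⟨hJ hg.1, hg.2⟩) full unN hoN ncard_min
    (y := mkL U) (by rintro _ ⟨g, _, rfl⟩; exact ⟨(co_norm g _).trans nU, by simp⟩)
  have f2 : ∀ σ ∈ K A 2, σ 98281 = 98281 := fun σ hσ =>
    stabB_shl.1 (K_le_stabB hA hl (t := 2) (v := Nat.shiftLeft 1 98281) (by decide +kernel) hσ)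
  have a2 := ncard_union (J := J ⊓ stabilizer Co0 (mkL U)) lay hl
    (fun σ hσ => (actsN σ (K_mono A (by omega) hσ)).imp fun g hg => ⟨⟨hJ hg.1, by
      have := hg.2.2 98281 (mem_bset_ivl.2 (by omega))
      rwa [f2 σ hσ, XU] at this⟩, hg.2⟩) (full.mono (by simp)) unNU hoNU
    ((congrArg _ (fam_eq _)).trans cntU2)
    (y := mkL U2) (by
      rintro _ ⟨g, hg, rfl⟩
      rw [fam_eq]
      refine mem_FL1.2 ⟨(co_norm g _).trans nU2, ?_⟩
      have := co_dot g (mkL U) (mkL U2)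
      rwa [mem_stabilizer_iff.1 hg.2, dU2] at this)
  simp only [List.map_cons, List.map_nil, List.sum_cons, List.sum_nil, add_zero] at a1 a2
  rw [if_pos ⟨1, J.one_mem, by rw [XU, one_smul]⟩] at a1
  rw [if_pos ⟨1, Subgroup.one_mem _, by rw [XU2, one_smul]⟩] at a2
  rw [card_eq_orbit_mul' J (mkL U), card_eq_orbit_mul' (J ⊓ _) (mkL U2), a1, a2, inf_assoc,
    inf_eq_right.2 (S_le.trans hJ)]

theorem card_S : Nat.card ↥(stabilizer Co0 (mkL U) ⊓ stabilizer Co0 (mkL U2)) = 454164480 := by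
  have h := card_over (J := NN) le_rfl
  have a : ∀ (l : List ℤ) (k : ℕ), andB (inB l) (andB (Nat.blt k 24)
      (allN 24 fun j => decide (nthD 0 U j % 4 = 0)) && decide (nthD 0 l k % 4 ≠ 0)) = true →
      ¬ ∃ g ∈ NN, g • mkL U = mkL l := by
    rintro l k hl ⟨g, hg, e⟩
    simp only [andB_eq, Bool.and_eq_true, Nat.blt_eq, decide_eq_true_eq] at hl
    obtain ⟨σ, _, c, _, h⟩ := (mem_NN.1 hg).exists
    have h1 := congrFun (h (mkL U)) (pt k)
    rw [e, coe_mkL hl.1, coe_mkL (l := U) (by decide +kernel)] at h1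
    have h2 := of_decide_eq_true (allN_spec hl.2.1.2 _ (idx_lt (σ.symm (pt k))))
    have h3 := hl.2.2
    rw [nthD_eq] at h2 h3
    unfold vec signedPerm at h1
    simp only [idx_pt k hl.2.1.1] at h1
    split_ifs at h1 <;> omega
  have b : ∀ (l : List ℤ) (k : ℕ), andB (inB l) (andB (Nat.blt k 24)
      (decide ((nthD 0 U k + nthD 0 l k) % 8 ≠ 0))) = true →
      ¬ ∃ g ∈ NN ⊓ stabilizer Co0 (mkL U), g • mkL U2 = mkL l := by
    rintro l k hl ⟨g, hg, e⟩
    simp only [andB_eq, Bool.and_eq_true, Nat.blt_eq, decide_eq_true_eq] at hl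
    obtain ⟨p, s, hs, h1⟩ := mem_NN.1 hg.1 (e8 (pt 0)) (mem_stdCross.2 ⟨_, Or.inl rfl⟩)
    rw [← UU2, co_add, mem_stabilizer_iff.1 hg.2, e, AddSubgroup.coe_add, coe_mkL hl.1,
      coe_mkL (l := U) (by decide +kernel)] at h1
    have h2 := congrFun h1 (pt k)
    have h3 := hl.2.2
    rw [nthD_eq, nthD_eq] at h3
    simp only [Pi.add_apply, vec, idx_pt k hl.2.1, Pi.single_apply] at h2
    split_ifs at h2 <;> omega
  rw [if_neg (xN_97152 ▸ a _ 1 (by decide +kernel)), if_neg (xN_98304 ▸ a _ 1 (by decide +kernel)),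
    if_neg (xNU_924 ▸ b _ 0 (by decide +kernel)), if_neg (xNU_4928 ▸ b _ 0 (by decide +kernel)),
    if_neg (xNU_42240 ▸ b _ 0 (by decide +kernel)), if_neg (xNU_45056 ▸ b _ 0 (by decide +kernel)),
    card_NN] at h
  omega

theorem card_Co2 : Nat.card (stabilizer Co0 (mkL U)) = 42305421312000 := by
  rw [card_step trU2 nU2 dU2 cntU2, card_S]

theorem card_Co0 : Nat.card Co0 = 8315553613086720000 := by rw [card_top, card_Co2]

theorem coatom_NN : IsCoatom NN := by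
  refine ⟨fun h => ?_, fun J hJ => ?_⟩
  · have := card_NN
    rw [h, Subgroup.card_top, card_Co0] at this
    omega
  · have h1 := card_over hJ.le
    have h2 := Subgroup.card_dvd_of_le hJ.le
    have h3 := Subgroup.card_subgroup_dvd_card J
    have h4 : Nat.card J ≠ Nat.card NN := fun e =>
      hJ.ne (Subgroup.eq_of_le_of_card_ge hJ.le e.le)
    rw [card_S] at h1
    rw [card_NN] at h2 h4
    rw [← Subgroup.card_eq_iff_eq_top]
    rw [card_Co0] at h3 ⊢
    generalize Nat.card J = n at *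
    split_ifs at h1 <;> subst h1 <;> first | rfl | exact absurd rfl h4 | (revert h2 h3; decide)

theorem card_U62 : Nat.card ↥(stabilizer Co0 (mkL U) ⊓ stabilizer Co0 (mkL W16)) = 9196830720 := by
  have := card_step trW16 nW16 dW16 cntW16
  rw [card_Co2] at this; omega

theorem card_McL : Nat.card ↥(stabilizer Co0 (mkL U) ⊓ stabilizer Co0 (mkL W8)) = 898128000 := by
  have := card_step trW8 nW8 dW8 cntW8
  rw [card_Co2] at this; omega

theorem sum_std {u v : L} (hu : sqNorm (u : V) = 48) (hv : sqNorm (v : V) = 32)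
    (hd : dotInt (u : V) (v : V) = 24) : ∃ g : Co0, g • mkL u0 = u ∧ g • mkL U = v := by
  obtain ⟨g, h1, h2⟩ := pair_std trW8 (w := u - v) hv
    (by rw [AddSubgroup.coe_sub, sqNorm_sub, hu, hv, hd]; rfl)
    (by rw [AddSubgroup.coe_sub, dot_sub_right, dot_comm, hd, ← sqNorm_eq_dot, hv]; rfl)
  exact ⟨g, by rw [← u0_eq, co_add, h1, h2, add_sub_cancel], h1⟩

theorem du0U : dotInt (mkL u0 : V) (mkL U : V) = 24 := dot_mkL (by decide +kernel)

theorem cnt552 : (FL [(mkL u0, 24)]).ncard = 552 :=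
  (congrArg _ (fam_eq [(u0, 24)])).symm.trans cntu24

theorem stab_u0U : stabilizer Co0 (mkL u0) ⊓ stabilizer Co0 (mkL U) =
    stabilizer Co0 (mkL U) ⊓ stabilizer Co0 (mkL W8) := by
  ext g
  simp only [Subgroup.mem_inf, mem_stabilizer_iff, ← u0_eq, co_add]
  exact ⟨fun h => ⟨h.2, by simpa [h.2] using h.1⟩, fun h => ⟨by rw [h.1, h.2], h.1⟩⟩

theorem card_Co3 : Nat.card (stabilizer Co0 (mkL u0)) = 495766656000 := by
  rw [card_of_trans (cs := [(mkL u0, 24)]) (mem_FL1.2 ⟨nU, du0U⟩) (fun g hg q hq => by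
    rw [List.mem_singleton.1 hq]; exact hg) fun x hx =>
    sum_std nu0 (mem_FL1.1 hx).1 (mem_FL1.1 hx).2, cnt552, stab_u0U, card_McL]

theorem trans48 {u : L} (hu : sqNorm (u : V) = 48) : ∃ g : Co0, g • mkL u0 = u := by
  have h1 := ncard_mul_card_stab (G := Co0) (mkL u0) (O := {z | ∃ g : Co0, g • mkL u0 = z})
    fun _ => Iff.rfl
  rw [card_Co3, card_Co0] at h1
  have h2 := (ncard_L fun x => sqNorm x = 48).trans count48
  have := Set.eq_of_subset_of_ncard_le (s := {z | ∃ g : Co0, g • mkL u0 = z})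
    (t := {x : L | sqNorm (x : V) = 48}) (by rintro _ ⟨g, rfl⟩; exact (co_norm g _).trans nu0)
    (by omega) (finite_normL 48)
  exact (Set.ext_iff.1 this u).2 hu

theorem sub_iff {u v : L} (hu : sqNorm (u : V) = 48) (hv : sqNorm (v : V) = 32) :
    sqNorm ((u : V) - (v : V)) = 32 ↔ dotInt (u : V) (v : V) = 24 := by
  rw [sqNorm_sub, hu, hv]; omega

end Cfsg.Agent.Leech.M
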