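import Cfsg.Agent.Lib.Leech.Order

/-!
Transport of orbit data from standard positions.
-/

set_option autoImplicit false

namespace Cfsg.Agent.Leech

open Cfsg Cfsg.Agent.PG Cfsg.Agent.Golay Equiv MulAction
open scoped Pointwise

attribute [-simp] Fintype.sum_option

theorem Lay.transL {A : List Net} {P : List (List ℕ)} {B : ℕ} {u : L}
    (h : Lay A P B (stabilizer Co0 u)) {cs : List (List ℤ × ℤ)} (hf : Full P B cs)
    {gens : List (List ℕ)} {bs rs : List ℕ} {r : ℕ} (ht : trB A P B cs gens bs r rs = true)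
    {bl rl : List L} (hb : bs.map (X P) = bl) (hr : rs.map (X P) = rl) :
    ∀ x ∈ FL (cs.map fun q => (mkL q.1, q.2)),
      ∃ a ∈ rl, ∃ g : Co0, (∀ b ∈ u :: bl, g • b = b) ∧ g • a = x := by
  intro x hx
  obtain ⟨a, ha, g, hg, h1, h2⟩ := h.trans hf ht x (by rw [fam_eq]; exact hx)
  subst hb hr
  exact ⟨_, List.mem_map_of_mem ha, g, List.forall_mem_cons.2 ⟨hg, List.forall_mem_map.2 h1⟩, h2⟩

theorem single_rep {S : Set L} {a : L} {bs : List L}
    (h : ∀ x ∈ S, ∃ a' ∈ [a], ∃ g : Co0, (∀ b ∈ bs, g • b = b) ∧ g • a' = x) :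
    ∀ x ∈ S, ∃ g : Co0, (∀ b ∈ bs, g • b = b) ∧ g • a = x := fun x hx => by
  obtain ⟨a', ha, g, hg⟩ := h x hx
  rw [List.mem_singleton.1 ha] at hg
  exact ⟨g, hg⟩

theorem Lay.ncardL {A : List Net} {P : List (List ℕ)} {B : ℕ} {H : Subgroup Co0} (h : Lay A P B H)
    {cs : List (List ℤ × ℤ)} (hf : Full P B cs) {l n : ℕ}
    (hn : andB (csB cs) (force (famM B P cs) fun v => cardB l v n) = true) :
    (FL (cs.map fun q => (mkL q.1, q.2))).ncard = n := fam_eq cs ▸ h.ncard hf hn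

/-- an orbit in general position -/
theorem orbit_std {cs : List (L × ℤ)} {y0 : L} {bs : List L}
    (h : ∀ x ∈ FL cs, ∃ g : Co0, (∀ b ∈ bs, g • b = b) ∧ g • y0 = x) (hy : y0 ∈ FL cs) (k : Co0)
    {H : Subgroup Co0} (h1 : ∀ g : Co0, (∀ b ∈ bs, g • k • b = k • b) → g ∈ H)
    (h2 : ∀ g ∈ H, ∀ q ∈ cs, g • k • q.1 = k • q.1) :
    orbit H (k • y0) = FL (cs.map fun q => (k • q.1, q.2)) := by
  rw [orbit_eq_set]
  refine orbit_eq_FL ((smul_mem_FL k cs y0).2 hy) (fun g hg => List.forall_mem_map.2 (h2 g hg))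
    fun x hx => ?_
  obtain ⟨g, a1, a2⟩ := std_ext h k hx
  exact ⟨g * k⁻¹, h1 _ fun b hb => quot_co rfl (a1 b hb), quot_co rfl a2⟩

theorem ncard_FL_map (k : Co0) (cs : List (L × ℤ)) :
    (FL (cs.map fun q => (k • q.1, q.2))).ncard = (FL cs).ncard := by
  rw [smul_FL, Set.ncard_smul_set]

/-- transitivity in general position -/
theorem trans_std {cs : List (L × ℤ)} {y0 : L} {bs : List L}
    (h : ∀ x ∈ FL cs, ∃ g : Co0, (∀ b ∈ bs, g • b = b) ∧ g • y0 = x) (k : Co0) {x y : L}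
    (hx : x ∈ FL (cs.map fun q => (k • q.1, q.2))) (hy : y ∈ FL (cs.map fun q => (k • q.1, q.2))) :
    ∃ g : Co0, (∀ b ∈ bs, g • k • b = k • b) ∧ g • x = y := by
  obtain ⟨g, a1, a2⟩ := std_ext h k hx
  obtain ⟨g', b1, b2⟩ := std_ext h k hy
  exact ⟨g' * g⁻¹, fun b hb => quot_co (a1 b hb) (b1 b hb), quot_co a2 b2⟩

/-- the possible inner products with a fixed vector -/
theorem dot_cases {cs : List (L × ℤ)} {rl bs : List L} {x0 : L} (hx : x0 ∈ bs)
    (h : ∀ x ∈ FL cs, ∃ a ∈ rl, ∃ g : Co0, (∀ b ∈ bs, g • b = b) ∧ g • a = x) (k : Co0) {y : L}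
    (hy : y ∈ FL (cs.map fun q => (k • q.1, q.2))) :
    ∃ a ∈ rl, dotInt ((k • x0 : L) : V) (y : V) = dotInt (x0 : V) (a : V) := by
  obtain ⟨y, rfl⟩ := MulAction.surjective k y
  obtain ⟨a, ha, g, h1, rfl⟩ := h y ((smul_mem_FL k cs y).1 hy)
  exact ⟨a, ha, by rw [co_dot, ← co_dot g x0 a, h1 _ hx]⟩

theorem eq_of_dot {x y : L} (hx : sqNorm (x : V) = 32) (hy : sqNorm (y : V) = 32)
    (h : dotInt (x : V) (y : V) = 32) : y = x :=
  Subtype.ext (sub_eq_zero.1 (sqNorm_eq_zero (by rw [sqNorm_sub, dot_comm, hx, hy, h]; rfl)))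

/-- the matrix is symmetric -/
noncomputable def symB (M : List (List ℤ)) : Bool :=
  allN 24 fun p => allN 24 fun q => decide (nthD 0 (nthD [] M p) q = nthD 0 (nthD [] M q) p)

theorem IsMat.sq {g : Co0} {d : ℤ} {M : List (List ℤ)} (hg : IsMat g d M) (h : symB M = true) :
    g ^ 2 = 1 := by
  have h1 : ∀ a b : V, dotInt (mv M a) b = dotInt a (mv M b) := by
    intro a b
    show ∑ p, (∑ q, vec _ q * a q) * b p = ∑ q, a q * ∑ p, vec _ p * b p
    simp only [Finset.sum_mul, Finset.mul_sum]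
    rw [Finset.sum_comm]
    refine Finset.sum_congr rfl fun q _ => Finset.sum_congr rfl fun p _ => ?_
    have := of_decide_eq_true (allN_spec (allN_spec h _ (idx_lt p)) _ (idx_lt q))
    simp only [nthD_eq] at this
    unfold vec
    rw [this]; ring
  have h2 : ∀ a b : L, dotInt ((g • a : L) : V) (b : V) = dotInt (a : V) ((g • b : L) : V) := by
    intro a b
    have := h1 a b
    rw [← hg.2.2, ← hg.2.2, dot_smul_left, dot_smul_right] at this
    exact mul_left_cancel₀ hg.1 this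
  refine co_ext fun v => Subtype.ext (sub_eq_zero.1 (sqNorm_eq_zero ?_))
  rw [pow_two, mul_smul, one_smul, sqNorm_sub, co_norm, co_norm, h2, co_dot, ← sqNorm_eq_dot]
  ring

/-- the product moves all points of the bitmap -/
noncomputable def movesB (A : List Net) (lg : ℕ) (w : List ℕ) (B : ℕ) : Bool :=
  andB (Nat.beq (Nat.shiftRight B (Nat.pow 2 lg)) 0) <|
    subB B (orL ((List.range lg).map fun j => Nat.xor (papp1 A w (plane j lg)) (plane j lg)))

theorem movesB_spec {N : ℕ} {A : List Net} (hA : okA N A = true) {lg : ℕ} {w : List ℕ} {B : ℕ}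
    (h : movesB A lg w B = true) {i : ℕ} (hi : i ∈ bset B) : pp A w i ≠ i := by
  unfold movesB at h
  rw [andB_eq, Bool.and_eq_true] at h
  intro e
  obtain ⟨_, h1, h2⟩ := testBit_orL (subB_spec h.2 hi)
  obtain ⟨j, _, rfl⟩ := List.mem_map.1 h1
  have h3 : (papp1 A w (plane j lg) ^^^ plane j lg).testBit i = true := h2
  rw [Nat.testBit_xor, testBit_papp1 hA, e] at h3
  simp at h3

end Cfsg.Agent.Leech
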